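import Mathlib

/-!
Finite linear `p`-groups all of whose orbits on nonzero vectors have the same size:
stabilisers, semiregularity, irreducibility and two number theoretic facts.
-/

set_option autoImplicit false

namespace Cfsg.Agent.H21.HT

open Finset

theorem odd_sum_pow {R : Type*} [CommRing R] (x : R) (hx : Odd x) (m : ℕ) :
    Odd (∑ i ∈ range (2 * m + 1), x ^ i) := by
  induction m with
  | zero => simp
  | succ n ih =>
    rw [show 2 * (n + 1) + 1 = 2 * n + 1 + 1 + 1 by ring, sum_range_succ, sum_range_succ, add_assoc]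
    exact ih.add_even (hx.pow.add_odd hx.pow)

theorem odd_sum_pow_nat (x : ℕ) (hx : Odd x) (m : ℕ) :
    Odd (∑ i ∈ range (2 * m + 1), x ^ i) := by
  induction m with
  | zero => simp
  | succ n ih =>
    rw [show 2 * (n + 1) + 1 = 2 * n + 1 + 1 + 1 by ring, sum_range_succ, sum_range_succ, add_assoc]
    exact ih.add_even (hx.pow.add_odd hx.pow)

theorem eq_one_of_prime_pow_add_one {q m k : ℕ} (hq : q.Prime) (hm : m ≠ 0)
    (h : q ^ m + 1 = 2 ^ k) : m = 1 := by
  have hq2 : q ≠ 2 := by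
    rintro rfl
    have h2 : 2 ^ m + 1 ≥ 3 := by
      have : 2 ≤ 2 ^ m := Nat.le_self_pow hm 2
      omega
    have hk : k ≠ 0 := by rintro rfl; simp at h
    have h3 : 2 ∣ 2 ^ m + 1 := h ▸ dvd_pow_self 2 hk
    have h4 : 2 ∣ 2 ^ m := dvd_pow_self 2 hm
    omega
  have hodd : Odd q := hq.odd_of_ne_two hq2
  rcases Nat.even_or_odd m with ⟨r, hr⟩ | hmo
  · exfalso
    obtain ⟨a, ha⟩ := hodd.pow (n := r)
    have h2 : q ^ m + 1 = 4 * (a ^ 2 + a) + 2 := by rw [hr, pow_add, ha]; ring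
    rcases k with _ | _ | k
    · simp [hq.ne_zero] at h
    · have : q ≤ q ^ m := Nat.le_self_pow hm q
      have := hq.two_le
      omega
    · have : 2 ^ (k + 1 + 1) = 4 * 2 ^ k := by ring
      omega
  · have hS : ∃ S : ℤ, Odd S ∧ ((q : ℤ) + 1) * S = (q : ℤ) ^ m + 1 := by
      refine ⟨∑ i ∈ range m, (-(q : ℤ)) ^ i, ?_, ?_⟩
      · obtain ⟨r, rfl⟩ := hmo
        exact odd_sum_pow _ ((Int.odd_coe_nat q).2 hodd).neg r
      · have := geom_sum_mul (-(q : ℤ)) m
        rw [hmo.neg_pow] at this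
        linarith
    obtain ⟨S, hSo, hS⟩ := hS
    have hd : S ∣ (2 : ℤ) ^ k := ⟨(q : ℤ) + 1, by rw [mul_comm, hS]; exact_mod_cast h.symm⟩
    have hd' : S.natAbs ∣ 2 ^ k := by simpa [Int.natAbs_pow] using Int.natAbs_dvd_natAbs.2 hd
    obtain ⟨i, _, hi⟩ := (Nat.dvd_prime_pow Nat.prime_two).1 hd'
    have hi0 : i = 0 := by
      by_contra hi0
      have := (Int.natAbs_odd.2 hSo)
      rw [hi] at this
      exact (Nat.not_even_iff_odd.2 this) (Nat.even_pow.2 ⟨even_two, hi0⟩)
    rw [hi0] at hi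
    have hS1 : S = 1 := by
      have : (0 : ℤ) < (q : ℤ) + 1 := by positivity
      have : (0 : ℤ) < (q : ℤ) ^ m + 1 := by positivity
      rcases Int.natAbs_eq S with hs | hs <;> rw [hi] at hs
      · simpa using hs
      · exfalso; rw [hs] at hS; simp at hS; linarith
    rw [hS1] at hS
    have : q ^ 1 = q ^ m := by simp only [pow_one]; exact_mod_cast (by linarith : (q : ℤ) = (q : ℤ) ^ m)
    exact (Nat.pow_right_injective hq.two_le this).symm

theorem eq_of_prime_pow_sub_one {q m k : ℕ} (hq : q.Prime) (hm : m ≠ 0)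
    (h : q ^ m = 2 ^ k + 1) (hk : k ≠ 0) : m = 1 ∨ (q = 3 ∧ m = 2) := by
  rcases Nat.even_or_odd m with ⟨r, hr⟩ | hmo
  · right
    have hr0 : r ≠ 0 := by omega
    obtain ⟨a, ha⟩ : ∃ a, q ^ r = a + 1 :=
      ⟨q ^ r - 1, by have := Nat.one_le_pow r q hq.pos; omega⟩
    have h1 : a * (a + 2) = 2 ^ k := by
      have : q ^ m = a * (a + 2) + 1 := by rw [hr, pow_add, ha]; ring
      omega
    obtain ⟨i, _, hi⟩ := (Nat.dvd_prime_pow Nat.prime_two).1 (Dvd.intro _ h1)
    obtain ⟨j, _, hj⟩ := (Nat.dvd_prime_pow Nat.prime_two).1 (Dvd.intro_left _ h1)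
    have hq2 : 2 ≤ q ^ r := le_trans hq.two_le (Nat.le_self_pow hr0 q)
    have ha2 : a = 2 := by
      rcases i with _ | _ | i
      · simp at hi
        subst hi
        have h3 : 3 ∣ 2 ^ k := Dvd.intro_left _ h1
        exact absurd ((Nat.prime_three).dvd_of_dvd_pow h3) (by norm_num)
      · simpa using hi
      · rcases j with _ | _ | j
        · simp at hj
        · simp at hj; omega
        · have e1 : 2 ^ (i + 1 + 1) = 4 * 2 ^ i := by ring
          have e2 : 2 ^ (j + 1 + 1) = 4 * 2 ^ j := by ring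
          omega
    have h3 : q ^ r = 3 := by omega
    have hq3 : q = 3 := by
      have : q ∣ 3 := h3 ▸ dvd_pow_self q hr0
      exact (Nat.prime_dvd_prime_iff_eq hq Nat.prime_three).1 this
    refine ⟨hq3, ?_⟩
    subst hq3
    have : r = 1 := Nat.pow_right_injective (by norm_num : 2 ≤ 3) (by simpa using h3)
    omega
  · left
    have hq2 : q ≠ 2 := by
      rintro rfl
      have h4 : 2 ∣ 2 ^ m := dvd_pow_self 2 hm
      have h3 : 2 ∣ 2 ^ k := dvd_pow_self 2 hk
      omega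
    have hodd : Odd q := hq.odd_of_ne_two hq2
    have hS : ∃ S : ℕ, Odd S ∧ (q - 1) * S = q ^ m - 1 := by
      refine ⟨∑ i ∈ range m, q ^ i, ?_, ?_⟩
      · obtain ⟨r, rfl⟩ := hmo
        exact odd_sum_pow_nat _ hodd r
      · obtain ⟨b, rfl⟩ : ∃ b, q = b + 1 := ⟨q - 1, by have := hq.one_lt; omega⟩
        have := geom_sum_mul_add b m
        rw [Nat.add_sub_cancel, mul_comm]
        omega
    obtain ⟨S, hSo, hS⟩ := hS
    obtain ⟨i, _, hi⟩ := (Nat.dvd_prime_pow Nat.prime_two).1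
      (show S ∣ 2 ^ k from ⟨q - 1, by rw [mul_comm, hS, h, Nat.add_sub_cancel]⟩)
    have hi0 : i = 0 := by
      by_contra hi0
      rw [hi] at hSo
      exact (Nat.not_even_iff_odd.2 hSo) (Nat.even_pow.2 ⟨even_two, hi0⟩)
    rw [hi, hi0] at hS
    simp at hS
    have h1 := Nat.one_le_pow m q hq.pos
    have : q ^ 1 = q ^ m := by simp only [pow_one]; have := hq.one_lt; omega
    exact (Nat.pow_right_injective hq.two_le this).symm

variable {q : ℕ} [Fact q.Prime] {V : Type*} [AddCommGroup V] [Module (ZMod q) V]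
  {G : Type*} [Group G] (ρ : G →* (V ≃ₗ[ZMod q] V))

/-- The stabiliser of a vector. -/
def stab (v : V) : Subgroup G where
  carrier := {g | ρ g v = v}
  one_mem' := by simp
  mul_mem' {a b} (ha : ρ a v = v) (hb : ρ b v = v) := by
    show ρ (a * b) v = v
    rw [map_mul]
    show ρ a (ρ b v) = v
    rw [hb, ha]
  inv_mem' {a} (ha : ρ a v = v) := by
    show ρ a⁻¹ v = v
    conv_lhs => rw [← ha]
    show (ρ a⁻¹ * ρ a) v = v
    rw [← map_mul, inv_mul_cancel, map_one]
    rfl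

theorem mem_stab {v : V} {g : G} : g ∈ stab ρ v ↔ ρ g v = v := Iff.rfl

theorem apply_mul (g h : G) (v : V) : ρ (g * h) v = ρ g (ρ h v) := by rw [map_mul]; rfl

theorem apply_one (v : V) : ρ 1 v = v := by rw [map_one]; rfl

theorem apply_inv_apply (g : G) (v : V) : ρ g⁻¹ (ρ g v) = v := by
  rw [← apply_mul, inv_mul_cancel, apply_one]

theorem apply_apply_inv (g : G) (v : V) : ρ g (ρ g⁻¹ v) = v := by
  rw [← apply_mul, mul_inv_cancel, apply_one]

theorem stab_zero : stab ρ 0 = ⊤ := by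
  ext g; simp [mem_stab]

theorem stab_inf_le_add (v w : V) : stab ρ v ⊓ stab ρ w ≤ stab ρ (v + w) := by
  intro g ⟨hv, hw⟩
  rw [mem_stab] at *
  rw [map_add, hv, hw]

theorem card_orbit_mul_card_stab [Finite G] (v : V) :
    Nat.card {u : V | ∃ g : G, ρ g v = u} * Nat.card (stab ρ v) = Nat.card G := by
  letI : MulAction G V :=
    { smul := fun g v => ρ g v
      one_smul := fun v => apply_one ρ v
      mul_smul := fun g h v => apply_mul ρ g h v }
  have h1 : MulAction.stabilizer G v = stab ρ v := by ext g; exact Iff.rfl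
  have h2 : {u : V | ∃ g : G, ρ g v = u} = MulAction.orbit G v := rfl
  rw [h2, ← h1, ← Nat.card_prod]
  exact Nat.card_congr (MulAction.orbitProdStabilizerEquivGroup G v)

/-- All nonzero vectors have stabilisers of the same order. -/
def EqualStab : Prop := ∀ v w : V, v ≠ 0 → w ≠ 0 → Nat.card (stab ρ v) = Nat.card (stab ρ w)

theorem equalStab_of_orbits [Finite G] [Finite V]
    (hhalf : ∀ v w : V, v ≠ 0 → w ≠ 0 →
      Nat.card {u : V | ∃ g : G, ρ g v = u} = Nat.card {u : V | ∃ g : G, ρ g w = u}) :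
    EqualStab ρ := by
  intro v w hv hw
  have h := (card_orbit_mul_card_stab ρ v).trans (card_orbit_mul_card_stab ρ w).symm
  rw [hhalf v w hv hw] at h
  have : Nonempty {u : V | ∃ g : G, ρ g w = u} := ⟨⟨ρ 1 w, 1, rfl⟩⟩
  exact Nat.eq_of_mul_eq_mul_left Nat.card_pos h

/-- Only the identity fixes a nonzero vector. -/
def Semiregular : Prop := ∀ v : V, v ≠ 0 → ∀ g : G, ρ g v = v → g = 1

theorem semiregular_of_stab_eq_bot [Finite G] (he : EqualStab ρ) {v : V} (hv : v ≠ 0)
    (h : stab ρ v = ⊥) : Semiregular ρ := by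
  intro w hw g hg
  have := he v w hv hw
  rw [h, Subgroup.card_bot] at this
  have h2 : stab ρ w = ⊥ := Subgroup.eq_bot_of_card_eq _ this.symm
  have : g ∈ stab ρ w := hg
  rwa [h2, Subgroup.mem_bot] at this

theorem eq_one_of_forall (hρ : Function.Injective ρ) {g : G} (h : ∀ v, ρ g v = v) : g = 1 :=
  hρ (by rw [map_one]; exact LinearEquiv.ext h)

theorem ne_of_not_semiregular [Finite G] [Finite V] [Nontrivial V] {p : ℕ} [Fact p.Prime]
    (hG : IsPGroup p G) (hρ : Function.Injective ρ) (he : EqualStab ρ) (hns : ¬ Semiregular ρ) :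
    p ≠ q := by
  rintro rfl
  apply hns
  letI : MulAction G V :=
    { smul := fun g v => ρ g v
      one_smul := fun v => apply_one ρ v
      mul_smul := fun g h v => apply_mul ρ g h v }
  have hdvd : p ∣ Nat.card V := by
    rw [Module.natCard_eq_pow_finrank (K := ZMod p) (V := V), Nat.card_zmod]
    exact dvd_pow_self p (by have := Module.finrank_pos (R := ZMod p) (M := V); omega)
  obtain ⟨b, hb, hb0⟩ := hG.exists_fixed_point_of_prime_dvd_card_of_fixed_point V hdvd
    (a := (0 : V)) (fun g => map_zero (ρ g))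
  intro w hw g hg
  refine eq_one_of_forall ρ hρ fun v => ?_
  rcases eq_or_ne v 0 with rfl | hv
  · exact map_zero _
  have h1 : stab ρ b = ⊤ := by
    ext g; simp only [Subgroup.mem_top, iff_true]; exact hb g
  have h2 := he b v (Ne.symm hb0) hv
  rw [h1, Subgroup.card_top] at h2
  have : stab ρ v = ⊤ := Subgroup.eq_top_of_card_eq _ h2.symm
  exact mem_stab ρ |>.1 (this ▸ Subgroup.mem_top g)

/-- No proper nonzero invariant subspace. -/
def Irr : Prop := ∀ W : Submodule (ZMod q) V, (∀ g, ∀ w ∈ W, ρ g w ∈ W) → W = ⊥ ∨ W = ⊤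

theorem natCast_ne_zero [Finite G] {p : ℕ} [Fact p.Prime] (hG : IsPGroup p G) (hpq : p ≠ q) :
    (Nat.card G : ZMod q) ≠ 0 := by
  obtain ⟨k, hk⟩ := IsPGroup.iff_card.1 hG
  intro h
  rw [ZMod.natCast_eq_zero_iff, hk] at h
  exact hpq ((Nat.prime_dvd_prime_iff_eq (Fact.out : q.Prime) (Fact.out : p.Prime)).1
    ((Fact.out : q.Prime).dvd_of_dvd_pow h)).symm

theorem exists_invariant_compl [Finite G] (hc : (Nat.card G : ZMod q) ≠ 0)
    (W : Submodule (ZMod q) V) (hW : ∀ g, ∀ w ∈ W, ρ g w ∈ W) :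
    ∃ U : Submodule (ZMod q) V, (∀ g, ∀ u ∈ U, ρ g u ∈ U) ∧ W ⊓ U = ⊥ ∧
      ∀ v, ∃ w ∈ W, ∃ u ∈ U, v = w + u := by
  classical
  have := Fintype.ofFinite G
  obtain ⟨f, hf⟩ := LinearMap.exists_leftInverse_of_injective W.subtype W.ker_subtype
  set π : V →ₗ[ZMod q] V := W.subtype ∘ₗ f with hπdef
  have hπW : ∀ v, π v ∈ W := fun v => (f v).2
  have hπ : ∀ w ∈ W, π w = w := fun w hw => by
    have := LinearMap.congr_fun hf ⟨w, hw⟩
    exact congrArg Subtype.val this
  set F : V →ₗ[ZMod q] V :=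
    (Nat.card G : ZMod q)⁻¹ • ∑ g : G, (ρ g).toLinearMap ∘ₗ π ∘ₗ (ρ g⁻¹).toLinearMap with hFdef
  have hF : ∀ v, F v = (Nat.card G : ZMod q)⁻¹ • ∑ g : G, ρ g (π (ρ g⁻¹ v)) := fun v => by
    simp [hFdef]
  have hFW : ∀ v, F v ∈ W := fun v => by
    rw [hF]; exact W.smul_mem _ (W.sum_mem fun g _ => hW g _ (hπW _))
  have hFfix : ∀ w ∈ W, F w = w := fun w hw => by
    rw [hF]
    have : ∀ g : G, ρ g (π (ρ g⁻¹ w)) = w := fun g => by
      rw [hπ _ (hW _ _ hw), apply_apply_inv]
    simp only [this, sum_const, card_univ, ← Nat.card_eq_fintype_card, ← Nat.cast_smul_eq_nsmul (ZMod q)]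
    rw [smul_smul, inv_mul_cancel₀ hc, one_smul]
  have hFeq : ∀ h v, F (ρ h v) = ρ h (F v) := fun h v => by
    rw [hF, hF, map_smul, map_sum]
    congr 1
    refine Fintype.sum_equiv (Equiv.mulLeft h⁻¹) _ _ fun g => ?_
    simp only [Equiv.coe_mulLeft, ← apply_mul, mul_inv_rev, inv_inv]
    congr 2 <;> group
  refine ⟨LinearMap.ker F, fun g u hu => ?_, ?_, fun v => ?_⟩
  · rw [LinearMap.mem_ker] at *
    rw [hFeq, hu, map_zero]
  · rw [Submodule.eq_bot_iff]
    rintro x ⟨hx, hx'⟩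
    rw [← hFfix x hx]; exact hx'
  · refine ⟨F v, hFW v, v - F v, ?_, by abel⟩
    rw [LinearMap.mem_ker, map_sub, hFfix _ (hFW v), sub_self]

theorem irr_of_not_semiregular [Finite G] [Finite V] {p : ℕ} [Fact p.Prime]
    (hG : IsPGroup p G) (hpq : p ≠ q) (hρ : Function.Injective ρ) (he : EqualStab ρ)
    (hns : ¬ Semiregular ρ) : Irr ρ := by
  intro W hW
  by_contra hcon
  push Not at hcon
  obtain ⟨U, hU, hWU, hdec⟩ := exists_invariant_compl ρ (natCast_ne_zero hG hpq) W hW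
  have key : ∀ w ∈ W, w ≠ 0 → ∀ u ∈ U, u ≠ 0 → stab ρ w = stab ρ u := by
    intro w hw hw0 u hu hu0
    have hsum : w + u ≠ 0 := fun h => hw0 <| by
      have h1 : w ∈ W ⊓ U := ⟨hw, by rw [eq_neg_of_add_eq_zero_left h]; exact U.neg_mem hu⟩
      rwa [hWU, Submodule.mem_bot] at h1
    have hle : stab ρ (w + u) ≤ stab ρ w ⊓ stab ρ u := by
      intro g hg
      rw [mem_stab, map_add] at hg
      have h1 : ρ g w - w = u - ρ g u := by rw [sub_eq_sub_iff_add_eq_add, hg]; abel
      have h2 : ρ g w - w ∈ W ⊓ U :=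
        ⟨W.sub_mem (hW g w hw) hw, h1 ▸ U.sub_mem hu (hU g u hu)⟩
      rw [hWU, Submodule.mem_bot] at h2
      rw [h2] at h1
      exact ⟨sub_eq_zero.1 h2, (sub_eq_zero.1 h1.symm).symm⟩
    have a := Subgroup.eq_of_le_of_card_ge (hle.trans inf_le_left) (he _ _ hsum hw0).ge
    have b := Subgroup.eq_of_le_of_card_ge (hle.trans inf_le_right) (he _ _ hsum hu0).ge
    exact a.symm.trans b
  obtain ⟨w0, hw0, hw0'⟩ := Submodule.exists_mem_ne_zero_of_ne_bot hcon.1
  obtain ⟨u0, hu0, hu0'⟩ : ∃ u ∈ U, u ≠ 0 := by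
    by_contra h
    push Not at h
    refine hcon.2 (eq_top_iff.2 fun v _ => ?_)
    obtain ⟨w, hw, u, hu, rfl⟩ := hdec v
    rw [h u hu, add_zero]; exact hw
  refine hns (semiregular_of_stab_eq_bot ρ he hw0' ?_)
  rw [eq_bot_iff]
  intro g hg
  rw [Subgroup.mem_bot]
  refine eq_one_of_forall ρ hρ fun v => ?_
  obtain ⟨w, hw, u, hu, rfl⟩ := hdec v
  have hgu : ∀ u ∈ U, ρ g u = u := fun u hu => by
    rcases eq_or_ne u 0 with rfl | hu'
    · exact map_zero _
    · rw [key w0 hw0 hw0' u hu hu'] at hg; exact hg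
  have hgw : ∀ w ∈ W, ρ g w = w := fun w hw => by
    rcases eq_or_ne w 0 with rfl | hw'
    · exact map_zero _
    · have : g ∈ stab ρ u0 := hgu u0 hu0
      rw [← key w hw hw' u0 hu0 hu0'] at this; exact this
  rw [map_add, hgw w hw, hgu u hu]

theorem fpf_of_central (hρ : Function.Injective ρ) (hirr : Irr ρ) {z : G} (hz : z ≠ 1)
    (hc : ∀ g, g * z = z * g) (v : V) (hv : ρ z v = v) : v = 0 := by
  let W : Submodule (ZMod q) V :=
    { carrier := {v | ρ z v = v}
      add_mem' := fun {a b} (ha : ρ z a = a) (hb : ρ z b = b) => by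
        show ρ z (a + b) = a + b
        rw [map_add, ha, hb]
      zero_mem' := map_zero (ρ z)
      smul_mem' := fun c a (ha : ρ z a = a) => by
        show ρ z (c • a) = c • a
        rw [map_smul, ha] }
  rcases hirr W (fun g w (hw : ρ z w = w) => by
      show ρ z (ρ g w) = ρ g w
      rw [← apply_mul, ← hc g, apply_mul, hw]) with h | h
  · have : v ∈ W := hv
    rwa [h, Submodule.mem_bot] at this
  · exfalso
    refine hz (eq_one_of_forall ρ hρ fun u => ?_)
    have : u ∈ W := h ▸ Submodule.mem_top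
    exact this

/-- A cyclic group with an irreducible faithful action, or a group with nontrivial stabilisers
meeting the centre, is semiregular. -/
theorem stab_inf_center_eq_bot (hρ : Function.Injective ρ) (hirr : Irr ρ) {v : V} (hv : v ≠ 0) :
    stab ρ v ⊓ Subgroup.center G = ⊥ := by
  rw [eq_bot_iff]
  rintro g ⟨hg, hg'⟩
  rw [Subgroup.mem_bot]
  by_contra h
  exact hv (fpf_of_central ρ hρ hirr h (fun x => Subgroup.mem_center_iff.1 hg' x) v hg)

end Cfsg.Agent.H21.HT
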