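import Cfsg.Agent.H21.HalfTransitive.Basic

/-!
The decomposition `V = ⊕ C_V(t z^j)` attached to a normal elementary subgroup `⟨t, z⟩` of order
`p ^ 2` with `z` central, and the exclusion of odd `p`.
-/

set_option autoImplicit false

namespace Cfsg.Agent.H21.HT

open Finset

variable {q : ℕ} [Fact q.Prime] {V : Type*} [AddCommGroup V] [Module (ZMod q) V]
  {G : Type*} [Group G] (ρ : G →* (V ≃ₗ[ZMod q] V)) {p : ℕ} [Fact p.Prime]

/-- Powers indexed by `ZMod p`. -/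
def pz (w : G) (i : ZMod p) : G := w ^ i.val

theorem pz_add {w : G} (hw : w ^ p = 1) (i j : ZMod p) : pz w (i + j) = pz w i * pz w j := by
  rw [pz, pz, pz, ← pow_add, ZMod.val_add, ← pow_eq_pow_mod _ hw]

theorem pz_zero (w : G) : pz w (0 : ZMod p) = 1 := by rw [pz, ZMod.val_zero, pow_zero]

theorem pz_one (w : G) : pz w (1 : ZMod p) = w := by rw [pz, ZMod.val_one, pow_one]

theorem pz_pow_p {w : G} (hw : w ^ p = 1) (i : ZMod p) : pz w i ^ p = 1 := by
  rw [pz, ← pow_mul, mul_comm, pow_mul, hw, one_pow]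

theorem pz_pz {w : G} (hw : w ^ p = 1) (i j : ZMod p) : pz (pz w i) j = pz w (i * j) := by
  rw [pz, pz, pz, ← pow_mul, ZMod.val_mul, ← pow_eq_pow_mod _ hw]

theorem pz_eq_one {w : G} (hw : w ^ p = 1) (hw1 : w ≠ 1) {i : ZMod p} (h : pz w i = 1) : i = 0 := by
  by_contra hi
  apply hw1
  have := pz_pz hw i i⁻¹
  rw [mul_inv_cancel₀ hi, pz_one, h] at this
  rw [← this, pz, one_pow]

/-- A noncentral element `t` of order `p` in a normal subgroup of order `p ^ 2` through the central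
element `z`. -/
structure PairData (p : ℕ) (G : Type*) [Group G] where
  t : G
  z : G
  ht : t ^ p = 1
  hz : z ^ p = 1
  hz1 : z ≠ 1
  hzc : ∀ g : G, g * z = z * g
  conj : ∀ g : G, ∃ c : ZMod p, g * t * g⁻¹ = t * pz z c
  htz : ∀ c : ZMod p, t ≠ pz z c

namespace PairData

variable (D : PairData p G)

theorem comm_pz (g : G) (j : ZMod p) : g * pz D.z j = pz D.z j * g :=
  ((show Commute g D.z from D.hzc g).pow_right _).eq

/-- The `p` non-central subgroups of order `p`. -/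
def u (j : ZMod p) : G := D.t * pz D.z j

theorem u_pow (j : ZMod p) : D.u j ^ p = 1 := by
  rw [u, (show Commute D.t (pz D.z j) from D.comm_pz D.t j).mul_pow, D.ht, pz_pow_p D.hz, one_mul]

theorem pz_u (j i : ZMod p) : pz (D.u j) i = pz D.t i * pz D.z (j * i) := by
  rw [← pz_pz D.hz]
  exact (show Commute D.t (pz D.z j) from D.comm_pz D.t j).mul_pow _

theorem conj_u (g : G) : ∃ c : ZMod p, ∀ j, g * D.u j * g⁻¹ = D.u (j + c) := by
  obtain ⟨c, hc⟩ := D.conj g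
  refine ⟨c, fun j => ?_⟩
  rw [u, u, add_comm j c, pz_add D.hz, ← mul_assoc D.t, ← hc]
  simp only [mul_assoc]
  rw [← D.comm_pz g⁻¹ j]

/-- The fixed space of `u j`. -/
def W (j : ZMod p) : Submodule (ZMod q) V where
  carrier := {v | ρ (D.u j) v = v}
  add_mem' {a b} (ha : _ = a) (hb : _ = b) := by
    show ρ _ (a + b) = a + b
    rw [map_add, ha, hb]
  zero_mem' := map_zero (ρ _)
  smul_mem' c a (ha : _ = a) := by
    show ρ _ (c • a) = c • a
    rw [map_smul, ha]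

theorem mem_W {j : ZMod p} {v : V} : v ∈ D.W ρ j ↔ ρ (D.u j) v = v := Iff.rfl

theorem pz_mem_W {j : ZMod p} {v : V} (h : v ∈ D.W ρ j) (i : ZMod p) :
    ρ (pz (D.u j) i) v = v :=
  mem_stab ρ |>.1 ((stab ρ v).pow_mem h _)

theorem map_W {g : G} {c : ZMod p} (hc : ∀ j, g * D.u j * g⁻¹ = D.u (j + c)) {j : ZMod p}
    {v : V} (hv : v ∈ D.W ρ j) : ρ g v ∈ D.W ρ (j + c) := by
  rw [mem_W, ← hc, apply_mul, apply_inv_apply, apply_mul, (D.mem_W ρ).1 hv]

/-- Average over `⟨u j⟩`. -/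
noncomputable def e (j : ZMod p) : V →ₗ[ZMod q] V :=
  (p : ZMod q)⁻¹ • ∑ i : ZMod p, (ρ (pz (D.u j) i)).toLinearMap

theorem e_apply (j : ZMod p) (v : V) :
    D.e ρ j v = (p : ZMod q)⁻¹ • ∑ i : ZMod p, ρ (pz (D.u j) i) v := by simp [e]

theorem p_ne (hpq : p ≠ q) : (p : ZMod q) ≠ 0 := by
  rw [Ne, ZMod.natCast_eq_zero_iff]
  exact fun h => hpq ((Nat.prime_dvd_prime_iff_eq Fact.out Fact.out).1 h).symm

theorem e_fix (hpq : p ≠ q) {j : ZMod p} {v : V} (h : v ∈ D.W ρ j) : D.e ρ j v = v := by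
  rw [e_apply]
  simp only [D.pz_mem_W ρ h, sum_const, card_univ, ZMod.card, ← Nat.cast_smul_eq_nsmul (ZMod q)]
  rw [smul_smul, inv_mul_cancel₀ (p_ne hpq), one_smul]

theorem sum_fixed {w : G} (hw : w ^ p = 1) (v : V) :
    ρ w (∑ i : ZMod p, ρ (pz w i) v) = ∑ i : ZMod p, ρ (pz w i) v := by
  rw [map_sum]
  refine Fintype.sum_equiv (Equiv.addLeft 1) _ _ fun i => ?_
  rw [Equiv.coe_addLeft, pz_add hw, pz_one, apply_mul]

theorem e_mem (j : ZMod p) (v : V) : D.e ρ j v ∈ D.W ρ j := by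
  rw [mem_W, e_apply, map_smul, sum_fixed ρ (D.u_pow j)]

variable (hρ : Function.Injective ρ) (hirr : Irr ρ)

include hρ hirr

theorem sum_pz_eq_zero {c : ZMod p} (hc : c ≠ 0) (v : V) :
    ∑ i : ZMod p, ρ (pz (pz D.z c) i) v = 0 :=
  fpf_of_central ρ hρ hirr (fun h => hc (pz_eq_one D.hz D.hz1 h)) (fun g => D.comm_pz g c) _
    (sum_fixed ρ (pz_pow_p D.hz c) v)

theorem e_zero (hpq : p ≠ q) {j k : ZMod p} (hjk : j ≠ k) {v : V} (h : v ∈ D.W ρ k) :
    D.e ρ j v = 0 := by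
  rw [e_apply]
  have : ∀ i, ρ (pz (D.u j) i) v = ρ (pz (pz D.z (j - k)) i) v := fun i => by
    have h1 : pz (D.u j) i = pz (pz D.z (j - k)) i * pz (D.u k) i := by
      rw [pz_u, pz_u, pz_pz D.hz, ← mul_assoc, ← D.comm_pz (pz D.t i), mul_assoc,
        ← pz_add D.hz]
      congr 2; ring
    rw [h1, apply_mul, D.pz_mem_W ρ h]
  simp only [this]
  rw [D.sum_pz_eq_zero ρ hρ hirr (sub_ne_zero.2 hjk), smul_zero]

theorem sum_e (hpq : p ≠ q) (v : V) : ∑ j : ZMod p, D.e ρ j v = v := by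
  simp only [e_apply, ← smul_sum]
  rw [sum_comm, sum_eq_single (0 : ZMod p)]
  · simp only [pz_zero, apply_one, sum_const, card_univ, ZMod.card,
      ← Nat.cast_smul_eq_nsmul (ZMod q)]
    rw [smul_smul, inv_mul_cancel₀ (p_ne hpq), one_smul]
  · intro i _ hi
    have : ∀ j, ρ (pz (D.u j) i) v = ρ (pz D.t i) (ρ (pz (pz D.z i) j) v) := fun j => by
      rw [pz_u, apply_mul, pz_pz D.hz, mul_comm]
    simp only [this, ← map_sum, D.sum_pz_eq_zero ρ hρ hirr hi, map_zero]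
  · simp

theorem W_ne_bot [Nontrivial V] (hpq : p ≠ q) (j : ZMod p) : D.W ρ j ≠ ⊥ := by
  obtain ⟨k, hk⟩ : ∃ k, D.W ρ k ≠ ⊥ := by
    by_contra h
    push Not at h
    obtain ⟨v, hv⟩ := exists_ne (0 : V)
    apply hv
    rw [← D.sum_e ρ hρ hirr hpq v]
    refine sum_eq_zero fun j _ => ?_
    have := D.e_mem ρ j v
    rwa [h j, Submodule.mem_bot] at this
  obtain ⟨w, hw, hw0⟩ := Submodule.exists_mem_ne_zero_of_ne_bot hk
  obtain ⟨g, c, hg, hc⟩ : ∃ g c, (∀ i, g * D.u i * g⁻¹ = D.u (i + c)) ∧ c ≠ 0 := by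
    by_contra h
    push Not at h
    have hcen : ∀ g, g * D.u k = D.u k * g := fun g => by
      obtain ⟨c, hc⟩ := D.conj_u g
      have := hc k
      rw [h g c hc, add_zero] at this
      exact mul_inv_eq_iff_eq_mul.1 this
    refine hw0 (fpf_of_central ρ hρ hirr (fun h1 => D.htz (-k) ?_) hcen w hw)
    calc D.t = D.t * pz D.z k * pz D.z (-k) := by
          rw [mul_assoc, ← pz_add D.hz, add_neg_cancel, pz_zero, mul_one]
      _ = pz D.z (-k) := by rw [← u, h1, one_mul]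
  have key : ∀ n : ℕ, ρ (g ^ n) w ∈ D.W ρ (k + n * c) := by
    intro n
    induction n with
    | zero => simpa [apply_one] using hw
    | succ n ih =>
      rw [pow_succ', apply_mul]
      have := D.map_W ρ hg ih
      convert this using 2
      push_cast; ring
  intro h
  have := key ((j - k) * c⁻¹).val
  rw [ZMod.natCast_rightInverse, mul_assoc, inv_mul_cancel₀ hc, mul_one, add_sub_cancel, h,
    Submodule.mem_bot] at this
  exact hw0 ((ρ _).map_eq_zero_iff.1 this)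

/-- An element fixing a sum of vectors from two different components either fixes both components
(`c = 0`) or swaps them, and the latter forces `p = 2`. -/
theorem fix_add (hpq : p ≠ q) {j k : ZMod p} (hjk : j ≠ k) {a b : V} (ha : a ∈ D.W ρ j)
    (ha0 : a ≠ 0) (hb : b ∈ D.W ρ k) (hb0 : b ≠ 0) {g : G} {c : ZMod p}
    (hc : ∀ i, g * D.u i * g⁻¹ = D.u (i + c)) (hg : ρ g (a + b) = a + b) :
    (c = 0 ∧ ρ g a = a ∧ ρ g b = b) ∨
      (c ≠ 0 ∧ j + c = k ∧ k + c = j ∧ ρ g a = b ∧ ρ g b = a) := by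
  have hga := D.map_W ρ hc ha
  have hgb := D.map_W ρ hc hb
  rw [map_add] at hg
  have hj := congrArg (D.e ρ j) hg
  have hk := congrArg (D.e ρ k) hg
  rw [map_add, map_add, D.e_fix ρ hpq ha, D.e_zero ρ hρ hirr hpq hjk hb, add_zero] at hj
  rw [map_add, map_add, D.e_fix ρ hpq hb, D.e_zero ρ hρ hirr hpq hjk.symm ha, zero_add] at hk
  rcases eq_or_ne c 0 with h | h
  · subst h
    rw [add_zero] at hga hgb
    left
    rw [D.e_fix ρ hpq hga, D.e_zero ρ hρ hirr hpq hjk hgb, add_zero] at hj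
    rw [D.e_fix ρ hpq hgb, D.e_zero ρ hρ hirr hpq hjk.symm hga, zero_add] at hk
    exact ⟨rfl, hj, hk⟩
  · right
    have h1 : j ≠ j + c := by simp [h]
    have h2 : k ≠ k + c := by simp [h]
    rw [D.e_zero ρ hρ hirr hpq h1 hga, zero_add] at hj
    rw [D.e_zero ρ hρ hirr hpq h2 hgb, add_zero] at hk
    have hkj : k + c = j := by
      by_contra hne
      exact ha0 (hj ▸ D.e_zero ρ hρ hirr hpq (Ne.symm hne) hgb)
    have hjk' : j + c = k := by
      by_contra hne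
      exact hb0 (hk ▸ D.e_zero ρ hρ hirr hpq (Ne.symm hne) hga)
    rw [hkj] at hgb
    rw [hjk'] at hga
    rw [D.e_fix ρ hpq hgb] at hj
    rw [D.e_fix ρ hpq hga] at hk
    exact ⟨h, hjk', hkj, hk, hj⟩

include D in
theorem eq_two [Nontrivial V] [Finite G] (hpq : p ≠ q) (he : EqualStab ρ) (hns : ¬ Semiregular ρ) :
    p = 2 := by
  by_contra hp
  have h2 : (2 : ZMod p) ≠ 0 := fun h => hp ((Nat.prime_dvd_prime_iff_eq Fact.out Nat.prime_two).1
    ((ZMod.natCast_eq_zero_iff 2 p).1 (by exact_mod_cast h)))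
  have key : ∀ j k : ZMod p, j ≠ k → ∀ a ∈ D.W ρ j, a ≠ 0 → ∀ b ∈ D.W ρ k, b ≠ 0 →
      stab ρ a = stab ρ b := by
    intro j k hjk a ha ha0 b hb hb0
    have hsum : a + b ≠ 0 := fun h => ha0 <| by
      have := congrArg (D.e ρ j) h
      rwa [map_add, map_zero, D.e_fix ρ hpq ha, D.e_zero ρ hρ hirr hpq hjk hb, add_zero] at this
    have hle : stab ρ (a + b) ≤ stab ρ a ⊓ stab ρ b := by
      intro g hg
      obtain ⟨c, hc⟩ := D.conj_u g
      rcases D.fix_add ρ hρ hirr hpq hjk ha ha0 hb hb0 hc hg with ⟨_, h1, h1'⟩ | ⟨hc0, e1, e2, _⟩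
      · exact ⟨h1, h1'⟩
      · exfalso
        have h2c : (2 : ZMod p) * c = 0 := by linear_combination e1 + e2
        exact hc0 ((mul_eq_zero.1 h2c).resolve_left h2)
    exact (Subgroup.eq_of_le_of_card_ge (hle.trans inf_le_left) (he _ _ hsum ha0).ge).symm.trans
      (Subgroup.eq_of_le_of_card_ge (hle.trans inf_le_right) (he _ _ hsum hb0).ge)
  obtain ⟨a, ha, ha0⟩ := Submodule.exists_mem_ne_zero_of_ne_bot (D.W_ne_bot ρ hρ hirr hpq 0)
  obtain ⟨b, hb, hb0⟩ := Submodule.exists_mem_ne_zero_of_ne_bot (D.W_ne_bot ρ hρ hirr hpq 1)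
  refine hns (semiregular_of_stab_eq_bot ρ he ha0 ?_)
  rw [eq_bot_iff]
  intro g hg
  rw [Subgroup.mem_bot]
  refine eq_one_of_forall ρ hρ fun v => ?_
  have hfix : ∀ k, ∀ w ∈ D.W ρ k, ρ g w = w := by
    intro k w hw
    rcases eq_or_ne w 0 with rfl | hw0
    · exact map_zero _
    rcases eq_or_ne k 0 with rfl | hk
    · have h1 : g ∈ stab ρ b := key 0 1 zero_ne_one a ha ha0 b hb hb0 ▸ hg
      rw [← key 0 1 zero_ne_one w hw hw0 b hb hb0] at h1
      exact h1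
    · rw [key 0 k (Ne.symm hk) a ha ha0 w hw hw0] at hg
      exact hg
  conv_lhs => rw [← D.sum_e ρ hρ hirr hpq v]
  rw [map_sum]
  conv_rhs => rw [← D.sum_e ρ hρ hirr hpq v]
  exact sum_congr rfl fun k _ => hfix k _ (D.e_mem ρ k v)

end PairData

theorem exists_pairData [Finite G] (hG : IsPGroup p G) (A : Subgroup G) [A.Normal]
    (hA : IsMulCommutative A) (z : G) (hz : z ^ p = 1) (hz1 : z ≠ 1)
    (hzc : ∀ g : G, g * z = z * g) (t₀ : G) (ht₀ : t₀ ∈ A) (ht₀' : t₀ ^ p = 1)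
    (ht₀z : ∀ c : ZMod p, t₀ ≠ pz z c) :
    ∃ D : PairData p G, D.z = z := by
  classical
  have hnil : Group.IsNilpotent G := hG.isNilpotent
  set S : Set G := {x | x ∈ A ∧ x ^ p = 1 ∧ ∀ c : ZMod p, x ≠ pz z c} with hSdef
  obtain ⟨n, hn⟩ := Subgroup.nilpotent_iff_lowerCentralSeries.1 hnil
  obtain ⟨x, hxS, k, hxk, hmax⟩ : ∃ x ∈ S, ∃ k, x ∈ Subgroup.lowerCentralSeries (⊤ : Subgroup G) k ∧
      ∀ y ∈ S, y ∉ Subgroup.lowerCentralSeries (⊤ : Subgroup G) (k + 1) := by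
    let P : ℕ → Prop := fun k => ∀ y ∈ S, y ∉ Subgroup.lowerCentralSeries (⊤ : Subgroup G) k
    have hex : ∃ k, P k := ⟨n, fun y hy h => by
      rw [hn, Subgroup.mem_bot] at h
      exact hy.2.2 0 (by rw [h, pz_zero])⟩
    obtain ⟨k, hk⟩ : ∃ k, Nat.find hex = k + 1 := by
      rcases Nat.eq_zero_or_pos (Nat.find hex) with h | h
      · exact absurd (by simp) ((h ▸ Nat.find_spec hex : P 0) t₀ ⟨ht₀, ht₀', ht₀z⟩)
      · exact ⟨_, (Nat.succ_pred_eq_of_pos h).symm⟩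
    have h1 : ¬ P k := Nat.find_min hex (by omega)
    simp only [P] at h1
    push Not at h1
    obtain ⟨x, hx, hx'⟩ := h1
    exact ⟨x, hx, k, hx', hk ▸ Nat.find_spec hex⟩
  refine ⟨⟨x, z, hxS.2.1, hz, hz1, hzc, fun g => ?_, hxS.2.2⟩, rfl⟩
  set y : G := x⁻¹ * (g * x * g⁻¹) with hydef
  have hyA : y ∈ A := A.mul_mem (A.inv_mem hxS.1) (Subgroup.Normal.conj_mem inferInstance _ hxS.1 _)
  have hyp : y ^ p = 1 := by
    have hcm : Commute x⁻¹ (g * x * g⁻¹) := by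
      have := hA.is_comm.comm ⟨x⁻¹, A.inv_mem hxS.1⟩
        ⟨g * x * g⁻¹, Subgroup.Normal.conj_mem inferInstance _ hxS.1 _⟩
      exact congrArg Subtype.val this
    rw [hydef, hcm.mul_pow, inv_pow, conj_pow, hxS.2.1]
    simp
  have hyk : y ∈ Subgroup.lowerCentralSeries (⊤ : Subgroup G) (k + 1) := by
    have h1 : x⁻¹ * g * x⁻¹⁻¹ * g⁻¹ ∈ Subgroup.lowerCentralSeries (⊤ : Subgroup G) (k + 1) := by
      rw [Subgroup.lowerCentralSeries_succ]
      exact Subgroup.commutator_mem_commutator (Subgroup.inv_mem _ hxk) (Subgroup.mem_top g)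
    simpa [hydef, mul_assoc] using h1
  by_contra hcon
  push Not at hcon
  refine hmax y ⟨hyA, hyp, fun c hc => hcon c ?_⟩ hyk
  rw [← hc, hydef, mul_inv_cancel_left]

end Cfsg.Agent.H21.HT
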