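import Cfsg.Agent.H21.HalfTransitive.Decomp

/-!
The imprimitive case `p = 2`: either `|V| = 81`, or `q = 2 ^ m + 1` and the group is monomial on
`F_q ^ 2`.
-/

set_option autoImplicit false

namespace Cfsg.Agent.H21.HT

variable {q : ℕ} [Fact q.Prime] {V : Type*} [AddCommGroup V] [Module (ZMod q) V] [Finite V]
  [Nontrivial V] {G : Type*} [Group G] [Finite G] (ρ : G →* (V ≃ₗ[ZMod q] V))
  (hρ : Function.Injective ρ) (hirr : Irr ρ) (he : EqualStab ρ) (hns : ¬ Semiregular ρ)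
  (hpq : 2 ≠ q) (hG : IsPGroup 2 G) (D : PairData 2 G)

theorem zmod_two (c : ZMod 2) : c = 0 ∨ c = 1 := by revert c; decide

/-- `g` preserves both components. -/
def Fixes (g : G) : Prop := ∀ i, g * D.u i * g⁻¹ = D.u i

/-- `g` exchanges the two components. -/
def Swaps (g : G) : Prop := ∀ i, g * D.u i * g⁻¹ = D.u (i + 1)

theorem fixes_or_swaps (g : G) : Fixes D g ∨ Swaps D g := by
  obtain ⟨c, hc⟩ := D.conj_u g
  rcases zmod_two c with rfl | rfl
  · left; intro i; simpa using hc i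
  · right; exact hc

include hρ hirr hpq

theorem decomp (v : V) : D.e ρ 0 v + D.e ρ 1 v = v := by
  have := D.sum_e ρ hρ hirr hpq v
  rwa [show (Finset.univ : Finset (ZMod 2)) = {0, 1} by decide, Finset.sum_pair (by decide)] at this

theorem exists_swaps : ∃ g, Swaps D g := by
  by_contra h
  push Not at h
  have hfix : ∀ g, Fixes D g := fun g => (fixes_or_swaps D g).resolve_right (h g)
  obtain ⟨a, ha, ha0⟩ := Submodule.exists_mem_ne_zero_of_ne_bot (D.W_ne_bot ρ hρ hirr hpq 0)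
  refine ha0 (fpf_of_central ρ hρ hirr (fun h1 => D.htz 0 ?_)
    (fun g => mul_inv_eq_iff_eq_mul.1 (hfix g 0)) a ha)
  simpa [PairData.u, pz_zero] using h1

theorem swap_eq {g : G} {a b : V} (ha : a ∈ D.W ρ 0) (ha0 : a ≠ 0) (hb : b ∈ D.W ρ 1)
    (hb0 : b ≠ 0) (hg : Swaps D g) (h : ρ g (a + b) = a + b) : ρ g a = b ∧ ρ g b = a := by
  rcases D.fix_add ρ hρ hirr hpq zero_ne_one ha ha0 hb hb0 hg h with ⟨h1, _⟩ | ⟨_, _, _, h1, h2⟩
  · exact absurd h1 one_ne_zero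
  · exact ⟨h1, h2⟩

theorem fix_eq {g : G} {a b : V} (ha : a ∈ D.W ρ 0) (ha0 : a ≠ 0) (hb : b ∈ D.W ρ 1)
    (hb0 : b ≠ 0) (hg : Fixes D g) (h : ρ g (a + b) = a + b) : ρ g a = a ∧ ρ g b = b := by
  rcases D.fix_add ρ hρ hirr hpq zero_ne_one ha ha0 hb hb0 (c := 0) (by simpa [Fixes] using hg) h
    with ⟨_, h1, h2⟩ | ⟨h1, _⟩
  · exact ⟨h1, h2⟩
  · exact absurd rfl h1

theorem add_ne_zero {a b : V} (ha : a ∈ D.W ρ 0) (ha0 : a ≠ 0) (hb : b ∈ D.W ρ 1) : a + b ≠ 0 := by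
  intro h
  apply ha0
  have := congrArg (D.e ρ 0) h
  rwa [map_add, map_zero, D.e_fix ρ hpq ha, D.e_zero ρ hρ hirr hpq zero_ne_one hb, add_zero] at this

omit hρ hirr hpq in
theorem fixes_of_mem_stab {g : G} {i : ZMod 2} {a : V} (hρ : Function.Injective ρ) (hirr : Irr ρ)
    (hpq : 2 ≠ q) (ha : a ∈ D.W ρ i) (ha0 : a ≠ 0) (hg : ρ g a = a) : Fixes D g := by
  refine (fixes_or_swaps D g).resolve_right fun h => ha0 ?_
  have h1 := D.map_W ρ h ha
  rw [hg] at h1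
  rw [← D.e_fix ρ hpq ha, D.e_zero ρ hρ hirr hpq (by simp) h1]

theorem component_le {F : Submodule (ZMod q) V}
    (hF : ∀ h, Fixes D h → ∀ v ∈ F, ρ h v ∈ F) {i : ZMod 2} {a : V} (ha : a ∈ D.W ρ i)
    (ha0 : a ≠ 0) (haF : a ∈ F) : D.W ρ i ≤ F := by
  obtain ⟨g₀, hg₀⟩ := exists_swaps ρ hρ hirr hpq D
  have h2 : ∀ j : ZMod 2, j + 1 + 1 = j := by decide
  have hinv : ∀ g, Swaps D g → Swaps D g⁻¹ := fun g hg j => by
    have := hg (j + 1)
    rw [h2] at this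
    rw [← this]; group
  have hcomp : ∀ g g', Swaps D g → Swaps D g' → Fixes D (g * g') := fun g g' hg hg' j => by
    calc g * g' * D.u j * (g * g')⁻¹ = g * (g' * D.u j * g'⁻¹) * g⁻¹ := by group
      _ = D.u j := by rw [hg' j, hg, h2]
  have hne : ∀ j : ZMod 2, j ≠ j + 1 := by decide
  let U : Submodule (ZMod q) V :=
    F.comap (D.e ρ i) ⊓ F.comap ((ρ g₀⁻¹).toLinearMap ∘ₗ D.e ρ (i + 1))
  have hmem : ∀ v, v ∈ U ↔ D.e ρ i v ∈ F ∧ ρ g₀⁻¹ (D.e ρ (i + 1) v) ∈ F := fun v => Iff.rfl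
  have hdec : ∀ v, D.e ρ i v + D.e ρ (i + 1) v = v := fun v => by
    rcases zmod_two i with rfl | rfl
    · simpa using decomp ρ hρ hirr hpq D v
    · rw [show (1 : ZMod 2) + 1 = 0 by decide, add_comm]; exact decomp ρ hρ hirr hpq D v
  have hU : ∀ g, ∀ v ∈ U, ρ g v ∈ U := by
    intro g v hv
    rw [hmem] at hv ⊢
    have hv' : ρ g v = ρ g (D.e ρ i v) + ρ g (D.e ρ (i + 1) v) := by rw [← map_add, hdec]
    rcases fixes_or_swaps D g with hg | hg
    · have hg' : ∀ j, g * D.u j * g⁻¹ = D.u (j + 0) := by simpa [Fixes] using hg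
      have e0 := D.map_W ρ hg' (D.e_mem ρ i v)
      have e1 := D.map_W ρ hg' (D.e_mem ρ (i + 1) v)
      rw [add_zero] at e0 e1
      constructor
      · rw [hv', map_add, D.e_fix ρ hpq e0, D.e_zero ρ hρ hirr hpq (hne i) e1, add_zero]
        exact hF g hg _ hv.1
      · rw [hv', map_add, D.e_fix ρ hpq e1, D.e_zero ρ hρ hirr hpq (hne i).symm e0, zero_add]
        have hf : Fixes D (g₀⁻¹ * g * g₀) := fun j => by
          calc g₀⁻¹ * g * g₀ * D.u j * (g₀⁻¹ * g * g₀)⁻¹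
              = g₀⁻¹ * (g * (g₀ * D.u j * g₀⁻¹) * g⁻¹) * g₀⁻¹⁻¹ := by group
            _ = D.u j := by rw [hg₀ j, hg, hinv g₀ hg₀, h2]
        have := hF _ hf _ hv.2
        simpa only [apply_mul, apply_apply_inv] using this
    · have e0 := D.map_W ρ hg (D.e_mem ρ i v)
      have e1 := D.map_W ρ hg (D.e_mem ρ (i + 1) v)
      rw [h2] at e1
      constructor
      · rw [hv', map_add, D.e_fix ρ hpq e1, D.e_zero ρ hρ hirr hpq (hne i) e0, zero_add]
        have := hF _ (hcomp g g₀ hg hg₀) _ hv.2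
        simpa only [apply_mul, apply_apply_inv] using this
      · rw [hv', map_add, D.e_fix ρ hpq e0, D.e_zero ρ hρ hirr hpq (hne i).symm e1, add_zero]
        have := hF _ (hcomp _ _ (hinv g₀ hg₀) hg) _ hv.1
        simpa only [apply_mul] using this
  rcases hirr U hU with hbot | htop
  · have : a ∈ U := by
      rw [hmem, D.e_fix ρ hpq ha, D.e_zero ρ hρ hirr hpq (hne i).symm ha, map_zero]
      exact ⟨haF, F.zero_mem⟩
    rw [hbot, Submodule.mem_bot] at this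
    exact absurd this ha0
  · intro w hw
    have : w ∈ U := htop ▸ Submodule.mem_top
    rw [hmem, D.e_fix ρ hpq hw] at this
    exact this.1

include hns he

theorem transitive {a b : V} (ha : a ∈ D.W ρ 0) (ha0 : a ≠ 0) (hb : b ∈ D.W ρ 1) (hb0 : b ≠ 0) :
    ∃ g, Swaps D g ∧ ρ g a = b := by
  classical
  by_contra hcon
  push Not at hcon
  have hK : ∀ b' ∈ D.W ρ 1, b' ≠ 0 → (∀ g, Swaps D g → ρ g a ≠ b') → stab ρ a = stab ρ b' := by
    intro b' hb' hb0' hno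
    have hle : stab ρ (a + b') ≤ stab ρ a ⊓ stab ρ b' := by
      intro g hg
      rcases fixes_or_swaps D g with h | h
      · exact fix_eq ρ hρ hirr hpq D ha ha0 hb' hb0' h hg
      · exact absurd (swap_eq ρ hρ hirr hpq D ha ha0 hb' hb0' h hg).1 (hno g h)
    have hs := add_ne_zero ρ hρ hirr hpq D ha ha0 hb'
    exact (Subgroup.eq_of_le_of_card_ge (hle.trans inf_le_left) (he _ _ hs ha0).ge).symm.trans
      (Subgroup.eq_of_le_of_card_ge (hle.trans inf_le_right) (he _ _ hs hb0').ge)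
  have hnorm : ∀ h, Fixes D h → ∀ k ∈ stab ρ a, h * k * h⁻¹ ∈ stab ρ a := by
    intro h hh k hk
    have hb' : ρ h⁻¹ b ∈ D.W ρ 1 := by
      rw [D.mem_W]
      have h1 : D.u 1 * h⁻¹ = h⁻¹ * D.u 1 := by
        have := mul_inv_eq_iff_eq_mul.1 (hh 1)
        calc D.u 1 * h⁻¹ = h⁻¹ * (h * D.u 1) * h⁻¹ := by group
          _ = h⁻¹ * D.u 1 := by rw [this]; group
      rw [← apply_mul, h1, apply_mul, (D.mem_W ρ).1 hb]
    have hno : ∀ g, Swaps D g → ρ g a ≠ ρ h⁻¹ b := fun g hg hga => by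
      refine hcon (h * g) (fun i => ?_) (by rw [apply_mul, hga, apply_apply_inv])
      calc h * g * D.u i * (h * g)⁻¹ = h * (g * D.u i * g⁻¹) * h⁻¹ := by group
        _ = D.u (i + 1) := by rw [hg i, hh]
    have hb0' : ρ h⁻¹ b ≠ 0 := fun e => hb0 ((ρ _).map_eq_zero_iff.1 e)
    rw [hK _ hb' hb0' hno, mem_stab] at hk
    rw [hK b hb hb0 hcon, mem_stab, apply_mul, apply_mul, hk, apply_apply_inv]
  let F : Submodule (ZMod q) V :=
    { carrier := {v | ∀ k ∈ stab ρ a, ρ k v = v}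
      add_mem' := fun {x y} hx hy k hk => by rw [map_add, hx k hk, hy k hk]
      zero_mem' := fun k _ => map_zero _
      smul_mem' := fun c x hx k hk => by rw [map_smul, hx k hk] }
  have hF : ∀ h, Fixes D h → ∀ v ∈ F, ρ h v ∈ F := by
    intro h hh v hv k hk
    have hh' : Fixes D h⁻¹ := fun i => by
      calc h⁻¹ * D.u i * h⁻¹⁻¹ = h⁻¹ * (h * D.u i * h⁻¹) * h⁻¹⁻¹ := by rw [hh i]
        _ = D.u i := by group
    have := congrArg (ρ h) (hv _ (hnorm h⁻¹ hh' k hk))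
    rwa [apply_mul, apply_mul, inv_inv, apply_apply_inv] at this
  have h0 := component_le ρ hρ hirr hpq D hF ha ha0 fun k hk => hk
  have h1 := component_le ρ hρ hirr hpq D hF hb hb0
    fun k hk => by rwa [hK b hb hb0 hcon] at hk
  refine hns (semiregular_of_stab_eq_bot ρ he ha0 ?_)
  rw [eq_bot_iff]
  intro k hk
  rw [Subgroup.mem_bot]
  refine eq_one_of_forall ρ hρ fun v => ?_
  conv_lhs => rw [← decomp ρ hρ hirr hpq D v]
  rw [map_add, h0 (D.e_mem ρ 0 v) k hk, h1 (D.e_mem ρ 1 v) k hk, decomp ρ hρ hirr hpq D v]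

theorem transitive_same {a a' : V} (ha : a ∈ D.W ρ 0) (ha0 : a ≠ 0) (ha' : a' ∈ D.W ρ 0)
    (ha0' : a' ≠ 0) : ∃ h, Fixes D h ∧ ρ h a = a' := by
  obtain ⟨b, hb, hb0⟩ := Submodule.exists_mem_ne_zero_of_ne_bot (D.W_ne_bot ρ hρ hirr hpq 1)
  obtain ⟨g, hg, hga⟩ := transitive ρ hρ hirr he hns hpq D ha ha0 hb hb0
  obtain ⟨g', hg', hga'⟩ := transitive ρ hρ hirr he hns hpq D ha' ha0' hb hb0
  refine ⟨g'⁻¹ * g, fun i => ?_, by rw [apply_mul, hga, ← hga', apply_inv_apply]⟩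
  have := hg' i
  calc g'⁻¹ * g * D.u i * (g'⁻¹ * g)⁻¹ = g'⁻¹ * (g * D.u i * g⁻¹) * g'⁻¹⁻¹ := by group
    _ = D.u i := by rw [hg, ← this]; group

include hG

theorem card_W_eq : ∃ k, Nat.card (D.W ρ 0) = 2 ^ k + 1 := by
  classical
  obtain ⟨a, ha, ha0⟩ := Submodule.exists_mem_ne_zero_of_ne_bot (D.W_ne_bot ρ hρ hirr hpq 0)
  let H : Subgroup G :=
    { carrier := {g | Fixes D g}
      one_mem' := fun i => by simp
      mul_mem' := fun {x y} hx hy i => by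
        calc x * y * D.u i * (x * y)⁻¹ = x * (y * D.u i * y⁻¹) * x⁻¹ := by group
          _ = D.u i := by rw [hy i, hx i]
      inv_mem' := fun {x} hx i => by
        calc x⁻¹ * D.u i * x⁻¹⁻¹ = x⁻¹ * (x * D.u i * x⁻¹) * x⁻¹⁻¹ := by rw [hx i]
          _ = D.u i := by group }
  have horb : {u : V | ∃ g : H, (ρ.comp H.subtype) g a = u} =
      (D.W ρ 0 : Set V) \ {0} := by
    ext u
    constructor
    · rintro ⟨g, rfl⟩
      refine ⟨?_, fun h => ha0 ((ρ _).map_eq_zero_iff.1 h)⟩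
      have := D.map_W ρ (c := 0) (g := (g : G)) (fun i => by rw [add_zero]; exact g.2 i) ha
      rwa [add_zero] at this
    · rintro ⟨hu, hu0⟩
      obtain ⟨h, hh, rfl⟩ := transitive_same ρ hρ hirr he hns hpq D ha ha0 hu hu0
      exact ⟨⟨h, hh⟩, rfl⟩
  have hdvd : Nat.card ((D.W ρ 0 : Set V) \ {0} : Set V) ∣ Nat.card H := by
    rw [← horb, ← card_orbit_mul_card_stab (ρ.comp H.subtype) a]
    exact dvd_mul_right _ _
  obtain ⟨n, hn⟩ := IsPGroup.iff_card.1 (hG.to_subgroup H)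
  rw [hn] at hdvd
  obtain ⟨k, _, hk⟩ := (Nat.dvd_prime_pow Nat.prime_two).1 hdvd
  refine ⟨k, ?_⟩
  rw [← hk, Nat.card_coe_set_eq, Set.ncard_diff_singleton_add_one (D.W ρ 0).zero_mem,
    ← Nat.card_coe_set_eq]
  rfl

omit he hns hG in
theorem eq_one_of_basis {a b : V} (sa : ∀ w ∈ D.W ρ 0, ∃ c : ZMod q, c • a = w)
    (sb : ∀ w ∈ D.W ρ 1, ∃ c : ZMod q, c • b = w) {g : G} (h1 : ρ g a = a) (h2 : ρ g b = b) :
    g = 1 :=
  eq_one_of_forall ρ hρ fun v => by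
    obtain ⟨c, hc⟩ := sa _ (D.e_mem ρ 0 v)
    obtain ⟨d, hd⟩ := sb _ (D.e_mem ρ 1 v)
    rw [← decomp ρ hρ hirr hpq D v, ← hc, ← hd, map_add, map_smul, map_smul, h1, h2]

theorem monomial {a b : V} (ha : a ∈ D.W ρ 0) (ha0 : a ≠ 0) (hb : b ∈ D.W ρ 1) (hb0 : b ≠ 0)
    (sa : ∀ w ∈ D.W ρ 0, ∃ c : ZMod q, c • a = w) (sb : ∀ w ∈ D.W ρ 1, ∃ c : ZMod q, c • b = w) :
    (∀ c : ZMod q, c ≠ 0 → ∃ g, Swaps D g ∧ ρ g a = c • b ∧ ρ g b = c⁻¹ • a) ∧
    (∃ k, ρ k a = a ∧ ρ k b = -b) ∧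
    (∀ g, ρ g a = a → ρ g b = b ∨ ρ g b = -b) := by
  classical
  have h1 : ∀ c : ZMod q, c ≠ 0 → ∃ g, Swaps D g ∧ ρ g a = c • b ∧ ρ g b = c⁻¹ • a ∧
      ∀ x ∈ stab ρ (a + c • b), x = 1 ∨ x = g := by
    intro c hc
    have hcb : c • b ∈ D.W ρ 1 := (D.W ρ 1).smul_mem c hb
    have hcb0 : c • b ≠ 0 := smul_ne_zero hc hb0
    have hne : stab ρ (a + c • b) ≠ ⊥ := fun h =>
      hns (semiregular_of_stab_eq_bot ρ he (add_ne_zero ρ hρ hirr hpq D ha ha0 hcb) h)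
    have cl : ∀ x ∈ stab ρ (a + c • b),
        x = 1 ∨ (Swaps D x ∧ ρ x a = c • b ∧ ρ x b = c⁻¹ • a) := by
      intro x hx
      rcases fixes_or_swaps D x with h | h
      · obtain ⟨e1, e2⟩ := fix_eq ρ hρ hirr hpq D ha ha0 hcb hcb0 h hx
        rw [map_smul] at e2
        exact Or.inl (eq_one_of_basis ρ hρ hirr hpq D sa sb e1 (smul_right_injective V hc e2))
      · obtain ⟨e1, e2⟩ := swap_eq ρ hρ hirr hpq D ha ha0 hcb hcb0 h hx
        refine Or.inr ⟨h, e1, ?_⟩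
        rw [map_smul] at e2
        have := congrArg (c⁻¹ • ·) e2
        simpa [smul_smul, inv_mul_cancel₀ hc] using this
    obtain ⟨g, hg, hg1⟩ := (Subgroup.ne_bot_iff_exists_ne_one).1 hne |>
      fun ⟨g, hg⟩ => (⟨g.1, g.2, fun h => hg (Subtype.ext h)⟩ : ∃ g, g ∈ stab ρ (a + c • b) ∧ g ≠ 1)
    obtain ⟨hs, ga, gb⟩ := (cl g hg).resolve_left hg1
    refine ⟨g, hs, ga, gb, fun x hx => ?_⟩
    rcases cl x hx with h | ⟨_, xa, xb⟩
    · exact Or.inl h
    · right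
      refine (inv_mul_eq_one.1 (eq_one_of_basis ρ hρ hirr hpq D sa sb (g := g⁻¹ * x) ?_ ?_)).symm
      · rw [apply_mul, xa, ← ga, apply_inv_apply]
      · rw [apply_mul, xb, ← gb, apply_inv_apply]
  obtain ⟨g, _, _, _, hall⟩ := h1 1 one_ne_zero
  rw [one_smul] at hall
  have hcard : Nat.card (stab ρ a) ≤ 2 := by
    rw [he a (a + b) ha0 (add_ne_zero ρ hρ hirr hpq D ha ha0 hb), ← SetLike.coe_sort_coe,
      Nat.card_coe_set_eq]
    calc (stab ρ (a + b) : Set G).ncard ≤ ({1, g} : Set G).ncard :=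
          Set.ncard_le_ncard (fun x hx => by simpa using hall x hx)
      _ ≤ 2 := (Set.ncard_insert_le _ _).trans (by simp)
  have hsq : ∀ x, ρ x a = a → x ^ 2 = 1 := by
    intro x hx
    have hd := Subgroup.orderOf_dvd_natCard (stab ρ a) (show x ∈ stab ρ a from hx)
    have hpos : 0 < Nat.card (stab ρ a) := Nat.card_pos
    refine orderOf_dvd_iff_pow_eq_one.1 ?_
    interval_cases h : Nat.card (stab ρ a)
    · exact hd.trans (one_dvd 2)
    · exact hd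
  have hpm : ∀ x, ρ x a = a → ρ x b = b ∨ ρ x b = -b := by
    intro x hx
    have hxf := fixes_of_mem_stab ρ D hρ hirr hpq ha ha0 hx
    have hxb : ρ x b ∈ D.W ρ 1 := by
      have := D.map_W ρ (c := 0) (g := x) (fun i => by rw [add_zero]; exact hxf i) hb
      rwa [add_zero] at this
    obtain ⟨β, hβ⟩ := sb _ hxb
    have hbb : ρ x (ρ x b) = b := by rw [← apply_mul, ← sq, hsq x hx, apply_one]
    rw [← hβ, map_smul, ← hβ, smul_smul] at hbb
    have : (β * β) • b = (1 : ZMod q) • b := by rw [one_smul]; exact hbb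
    rcases mul_self_eq_one_iff.1 (smul_left_injective (ZMod q) hb0 this) with rfl | rfl
    · left; rw [← hβ, one_smul]
    · right; rw [← hβ, neg_one_smul]
  refine ⟨fun c hc => ?_, ?_, hpm⟩
  · obtain ⟨g, e1, e2, e3, _⟩ := h1 c hc
    exact ⟨g, e1, e2, e3⟩
  · have hne : stab ρ a ≠ ⊥ := fun h => hns (semiregular_of_stab_eq_bot ρ he ha0 h)
    obtain ⟨⟨k, hk⟩, hk1⟩ := Subgroup.ne_bot_iff_exists_ne_one.1 hne
    refine ⟨k, hk, (hpm k hk).resolve_left fun h => hk1 (Subtype.ext ?_)⟩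
    exact eq_one_of_basis ρ hρ hirr hpq D sa sb hk h

include D in
theorem imprimitive :
    (Nat.card V = 81 ∧ q = 3) ∨
    (Nat.card V = q ^ 2 ∧ (∃ m : ℕ, q = 2 ^ m + 1) ∧
      ∃ e : V ≃ₗ[ZMod q] (Fin 2 → ZMod q), ∀ f : (Fin 2 → ZMod q) ≃ₗ[ZMod q] (Fin 2 → ZMod q),
        (∃ g : G, f = e.symm.trans ((ρ g).trans e)) ↔
        ∃ a s : ZMod q, a ≠ 0 ∧ (s = 1 ∨ s = -1) ∧
          ((∀ v, f v = ![a * v 0, s * a⁻¹ * v 1]) ∨ (∀ v, f v = ![s * a⁻¹ * v 1, a * v 0]))) := by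
  classical
  have hq : q.Prime := Fact.out
  obtain ⟨k, hk⟩ := card_W_eq ρ hρ hirr he hns hpq hG D
  obtain ⟨g₀, hg₀⟩ := exists_swaps ρ hρ hirr hpq D
  have hW1 : Nat.card (D.W ρ 1) = Nat.card (D.W ρ 0) := by
    refine Nat.card_congr ((ρ g₀).toEquiv.subtypeEquiv (fun v => ?_))
    constructor
    · intro hv
      have := D.map_W ρ hg₀ hv
      rwa [show (1 : ZMod 2) + 1 = 0 by decide] at this
    · intro hv
      have hinv : Swaps D g₀⁻¹ := fun j => by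
        have := hg₀ (j + 1)
        rw [show j + 1 + 1 = j from (by decide : ∀ i : ZMod 2, i + 1 + 1 = i) j] at this
        rw [← this]; group
      have := D.map_W ρ hinv hv
      rw [zero_add] at this
      show v ∈ D.W ρ 1
      simpa [apply_inv_apply] using this
  have hVcard : Nat.card V = Nat.card (D.W ρ 0) * Nat.card (D.W ρ 1) := by
    rw [← Nat.card_prod]
    refine Nat.card_congr
      { toFun := fun v => (⟨D.e ρ 0 v, D.e_mem ρ 0 v⟩, ⟨D.e ρ 1 v, D.e_mem ρ 1 v⟩)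
        invFun := fun x => x.1.1 + x.2.1
        left_inv := fun v => decomp ρ hρ hirr hpq D v
        right_inv := fun x => ?_ }
    ext
    · simp [D.e_fix ρ hpq x.1.2, D.e_zero ρ hρ hirr hpq zero_ne_one x.2.2]
    · simp [D.e_fix ρ hpq x.2.2, D.e_zero ρ hρ hirr hpq one_ne_zero x.1.2]
  obtain ⟨m, hm⟩ : ∃ m, Nat.card (D.W ρ 0) = q ^ m := by
    refine ⟨Module.finrank (ZMod q) (D.W ρ 0), ?_⟩
    rw [Module.natCard_eq_pow_finrank (K := ZMod q), Nat.card_zmod]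
  have hm0 : m ≠ 0 := by
    rintro rfl
    have := Nat.one_le_two_pow (n := k)
    rw [hk] at hm; simp at hm
  have hcases : (m = 1 ∧ q = 2 ^ k + 1) ∨ (q = 3 ∧ m = 2) := by
    rcases eq_or_ne k 0 with rfl | hk0
    · exfalso
      rw [hm] at hk
      have h2 : q ∣ 2 := by
        have := dvd_pow_self q hm0
        rwa [hk] at this
      exact hpq ((Nat.prime_dvd_prime_iff_eq hq Nat.prime_two).1 h2).symm
    · rcases eq_of_prime_pow_sub_one hq hm0 (hm ▸ hk) hk0 with h | h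
      · left; exact ⟨h, by rw [← hk, hm, h, pow_one]⟩
      · exact Or.inr h
  rcases hcases with ⟨rfl, hqk⟩ | ⟨h1, rfl⟩
  swap
  · left; exact ⟨by rw [hVcard, hW1, hm, h1]; norm_num, h1⟩
  right
  rw [pow_one] at hm
  refine ⟨by rw [hVcard, hW1, hm]; ring, ⟨k, hqk⟩, ?_⟩
  obtain ⟨a, ha, ha0⟩ := Submodule.exists_mem_ne_zero_of_ne_bot (D.W_ne_bot ρ hρ hirr hpq 0)
  obtain ⟨b, hb, hb0⟩ := Submodule.exists_mem_ne_zero_of_ne_bot (D.W_ne_bot ρ hρ hirr hpq 1)
  have span : ∀ (i : ZMod 2) (x : V), x ∈ D.W ρ i → x ≠ 0 → Nat.card (D.W ρ i) = q →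
      ∀ w ∈ D.W ρ i, ∃ c : ZMod q, c • x = w := by
    intro i x hx hx0 hc w hw
    have hinj : Function.Injective fun c : ZMod q => (⟨c • x, (D.W ρ i).smul_mem c hx⟩ : D.W ρ i) :=
      fun c c' h => smul_left_injective (ZMod q) hx0 (congrArg Subtype.val h)
    obtain ⟨c, hc'⟩ := (hinj.bijective_of_nat_card_le (by rw [hc, Nat.card_zmod])).2 ⟨w, hw⟩
    exact ⟨c, congrArg Subtype.val hc'⟩
  have sa := span 0 a ha ha0 hm
  have sb := span 1 b hb hb0 (hW1.trans hm)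
  obtain ⟨hkey, ⟨kk, hkka, hkkb⟩, hpm⟩ :=
    monomial ρ hρ hirr he hns hpq hG D ha ha0 hb hb0 sa sb
  let φ : (Fin 2 → ZMod q) →ₗ[ZMod q] V :=
    (LinearMap.proj 0).smulRight a + (LinearMap.proj 1).smulRight b
  have hφ : ∀ v, φ v = v 0 • a + v 1 • b := fun v => rfl
  have he0 : ∀ x y : ZMod q, D.e ρ 0 (x • a + y • b) = x • a := fun x y => by
    rw [map_add, map_smul, map_smul, D.e_fix ρ hpq ha, D.e_zero ρ hρ hirr hpq zero_ne_one hb,
      smul_zero, add_zero]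
  have he1 : ∀ x y : ZMod q, D.e ρ 1 (x • a + y • b) = y • b := fun x y => by
    rw [map_add, map_smul, map_smul, D.e_fix ρ hpq hb, D.e_zero ρ hρ hirr hpq one_ne_zero ha,
      smul_zero, zero_add]
  have hinj : Function.Injective φ := by
    intro v w hvw
    rw [hφ, hφ] at hvw
    have h0 := congrArg (D.e ρ 0) hvw
    have h1 := congrArg (D.e ρ 1) hvw
    rw [he0, he0] at h0
    rw [he1, he1] at h1
    funext i
    fin_cases i
    · exact smul_left_injective (ZMod q) ha0 h0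
    · exact smul_left_injective (ZMod q) hb0 h1
  have hsurj : Function.Surjective φ := fun v => by
    obtain ⟨x, hx⟩ := sa _ (D.e_mem ρ 0 v)
    obtain ⟨y, hy⟩ := sb _ (D.e_mem ρ 1 v)
    exact ⟨![x, y], by rw [hφ]; simpa [hx, hy] using decomp ρ hρ hirr hpq D v⟩
  set E := LinearEquiv.ofBijective φ ⟨hinj, hsurj⟩ with hE
  refine ⟨E.symm, fun f => ?_⟩
  have hEeq : ∀ v, E v = v 0 • a + v 1 • b := fun v => rfl
  have hconv : ∀ g, (f = E.symm.symm.trans ((ρ g).trans E.symm)) ↔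
      ∀ v, E (f v) = ρ g (E v) := by
    intro g
    constructor
    · rintro rfl v; simp
    · intro h
      refine LinearEquiv.ext fun v => E.injective ?_
      rw [h v]; simp
  simp only [hconv, hEeq, map_add, map_smul]
  -- the elements of `G`
  have hdiag : ∀ c : ZMod q, c ≠ 0 → ∃ g, Fixes D g ∧ ρ g a = c • a ∧ ρ g b = c⁻¹ • b := by
    intro c hc
    obtain ⟨g, hg, ga, gb⟩ := hkey c⁻¹ (inv_ne_zero hc)
    obtain ⟨g1, hg1, g1a, g1b⟩ := hkey 1 one_ne_zero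
    rw [one_smul] at g1a
    rw [inv_one, one_smul] at g1b
    refine ⟨g * g1, fun i => ?_, by rw [apply_mul, g1a, gb, inv_inv], by rw [apply_mul, g1b, ga]⟩
    calc g * g1 * D.u i * (g * g1)⁻¹ = g * (g1 * D.u i * g1⁻¹) * g⁻¹ := by group
      _ = D.u i := by rw [hg1 i, hg]; congr 1; revert i; decide
  obtain ⟨g1, hg1, g1a, g1b⟩ := hkey 1 one_ne_zero
  rw [one_smul] at g1a
  rw [inv_one, one_smul] at g1b
  -- the diagonal elements
  have hfixed : ∀ g, Fixes D g → ∃ x s : ZMod q, x ≠ 0 ∧ (s = 1 ∨ s = -1) ∧ ρ g a = x • a ∧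
      ρ g b = (s * x⁻¹) • b := by
    intro g h
    have hga : ρ g a ∈ D.W ρ 0 := by
      have := D.map_W ρ (c := 0) (g := g) (fun i => by rw [add_zero]; exact h i) ha
      rwa [add_zero] at this
    obtain ⟨x, hx⟩ := sa _ hga
    have hx0 : x ≠ 0 := by
      rintro rfl; rw [zero_smul] at hx; exact ha0 ((ρ g).map_eq_zero_iff.1 hx.symm)
    obtain ⟨d, _, hda, hdb⟩ := hdiag x hx0
    have hk2 : ρ (d⁻¹ * g) a = a := by rw [apply_mul, ← hx, ← hda, apply_inv_apply]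
    rcases hpm _ hk2 with hk3 | hk3 <;> rw [apply_mul] at hk3 <;>
      have h4 := congrArg (ρ d) hk3 <;> rw [apply_apply_inv] at h4
    · exact ⟨x, 1, hx0, Or.inl rfl, hx.symm, by rw [h4, hdb, one_mul]⟩
    · exact ⟨x, -1, hx0, Or.inr rfl, hx.symm, by rw [h4, map_neg, hdb, neg_one_mul, neg_smul]⟩
  constructor
  · rintro ⟨g, hg⟩
    rcases fixes_or_swaps D g with h | h
    · obtain ⟨x, s, hx0, hs, hxa, hxb⟩ := hfixed g h
      refine ⟨x, s, hx0, hs, Or.inl fun v => E.injective ?_⟩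
      rw [hEeq, hEeq, hg v, hxa, hxb, smul_smul, smul_smul]
      simp only [Matrix.cons_val_zero, Matrix.cons_val_one]
      congr 2 <;> ring
    · have hf : Fixes D (g1 * g) := fun i => by
        calc g1 * g * D.u i * (g1 * g)⁻¹ = g1 * (g * D.u i * g⁻¹) * g1⁻¹ := by group
          _ = D.u i := by rw [h i, hg1]; congr 1; revert i; decide
      obtain ⟨x, s, hx0, hs, hxa, hxb⟩ := hfixed _ hf
      have hga : ρ g a = x • b := by
        have h2 : ρ g1 (ρ g a) = ρ g1 (x • b) := by rw [map_smul, g1b, ← apply_mul, hxa]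
        exact (ρ g1).injective h2
      have hgb : ρ g b = (s * x⁻¹) • a := by
        have h2 : ρ g1 (ρ g b) = ρ g1 ((s * x⁻¹) • a) := by rw [map_smul, g1a, ← apply_mul, hxb]
        exact (ρ g1).injective h2
      refine ⟨x, s, hx0, hs, Or.inr fun v => E.injective ?_⟩
      rw [hEeq, hEeq, hg v, hga, hgb, smul_smul, smul_smul, add_comm]
      simp only [Matrix.cons_val_zero, Matrix.cons_val_one]
      congr 2 <;> ring
  · rintro ⟨x, s, hx0, hs, hform⟩
    obtain ⟨k, hka, hkb⟩ : ∃ k, ρ k a = a ∧ ρ k b = s • b := by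
      rcases hs with rfl | rfl
      · exact ⟨1, apply_one ρ a, by rw [apply_one, one_smul]⟩
      · exact ⟨kk, hkka, by rw [hkkb, neg_one_smul]⟩
    rcases hform with hf | hf
    · obtain ⟨d, _, hda, hdb⟩ := hdiag x hx0
      refine ⟨d * k, fun v => ?_⟩
      rw [hf v, apply_mul, hka, hda, apply_mul, hkb, map_smul, hdb, smul_smul, smul_smul, smul_smul]
      simp only [Matrix.cons_val_zero, Matrix.cons_val_one]
      congr 2 <;> ring
    · obtain ⟨g, _, hga, hgb⟩ := hkey x hx0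
      refine ⟨g * k, fun v => ?_⟩
      rw [hf v, apply_mul, hka, hga, apply_mul, hkb, map_smul, hgb, smul_smul, smul_smul, smul_smul,
        add_comm (_ • b) _]
      simp only [Matrix.cons_val_zero, Matrix.cons_val_one]
      congr 2 <;> ring

end Cfsg.Agent.H21.HT
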