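import Cfsg.Agent.H21.HalfTransitive.Basic
import Cfsg.Prelude.Def_CaseTheorems

/-!
The primitive case: dihedral and semidihedral groups with a semiregular cyclic subgroup of
index two. Counting the involutions outside the cyclic subgroup gives `|V| = q ^ 2`.
-/

set_option autoImplicit false

namespace Cfsg.Agent.H21.HT

open Finset

variable {q : ℕ} [Fact q.Prime] {V : Type*} [AddCommGroup V] [Module (ZMod q) V] [Finite V]
  [Nontrivial V] {G : Type*} [Group G] [Finite G] (ρ : G →* (V ≃ₗ[ZMod q] V))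
  (hρ : Function.Injective ρ) (hirr : Irr ρ) (he : EqualStab ρ) (hns : ¬ Semiregular ρ)
  (hpq : 2 ≠ q)

include hρ hirr he hns hpq

theorem count (C : Subgroup G) (hC : C.index = 2) {z w : G} (hz : z * z = 1) (hz1 : z ≠ 1)
    (hzc : ∀ g, g * z = z * g) (hzC : ∀ x ∈ C, x ≠ 1 → z ∈ Subgroup.zpowers x)
    (hw : ∀ t, t ∉ C → t * t = 1 → w * t * w⁻¹ = t * z) :
    ∃ m, m ≠ 0 ∧ Nat.card V = q ^ (2 * m) ∧
      q ^ m + 1 = Nat.card {t : G | t ∉ C ∧ t * t = 1} := by
  classical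
  have := Fintype.ofFinite G
  have := Fintype.ofFinite V
  have hmz : ∀ v, ρ z v = -v := fun v =>
    eq_neg_of_add_eq_zero_left (fpf_of_central ρ hρ hirr hz1 hzc (ρ z v + v)
      (by rw [map_add, ← apply_mul, hz, apply_one, add_comm]))
  have hCfpf : ∀ v, v ≠ 0 → ∀ x ∈ C, ρ x v = v → x = 1 := by
    intro v hv x hx hxv
    by_contra hx1
    obtain ⟨i, hi⟩ := Subgroup.mem_zpowers_iff.1 (hzC x hx hx1)
    have : z ∈ stab ρ v := hi ▸ (stab ρ v).zpow_mem (show x ∈ stab ρ v from hxv) i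
    exact hv (fpf_of_central ρ hρ hirr hz1 hzc v this)
  have hmul : ∀ x y : G, x ∉ C → y ∉ C → x * y ∈ C := fun x y hx hy =>
    (Subgroup.mul_mem_iff_of_index_two hC).2 (iff_of_false hx hy)
  have huniq : ∀ v, v ≠ 0 → ∃! t, (t ∉ C ∧ t * t = 1) ∧ ρ t v = v := by
    intro v hv
    have hne : stab ρ v ≠ ⊥ := fun h => hns (semiregular_of_stab_eq_bot ρ he hv h)
    obtain ⟨⟨t, ht⟩, ht1⟩ := Subgroup.ne_bot_iff_exists_ne_one.1 hne
    have htC : t ∉ C := fun h => ht1 (Subtype.ext (hCfpf v hv t h ht))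
    have htt : t * t = 1 := hCfpf v hv _ (hmul t t htC htC) (by rw [apply_mul, ht, ht])
    refine ⟨t, ⟨⟨htC, htt⟩, ht⟩, fun s ⟨⟨hsC, hss⟩, hs⟩ => ?_⟩
    have := hCfpf v hv _ (hmul s t hsC htC) (by rw [apply_mul, ht, hs])
    calc s = s * (t * t) := by rw [htt, mul_one]
      _ = t := by rw [← mul_assoc, this, one_mul]
  let F : G → Submodule (ZMod q) V := fun t =>
    { carrier := {v | ρ t v = v}
      add_mem' := fun {x y} (hx : ρ t x = x) (hy : ρ t y = y) => by
        show ρ t (x + y) = x + y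
        rw [map_add, hx, hy]
      zero_mem' := map_zero (ρ t)
      smul_mem' := fun c x (hx : ρ t x = x) => by
        show ρ t (c • x) = c • x
        rw [map_smul, hx] }
  have h2 : (2 : ZMod q) ≠ 0 := fun h => hpq ((Nat.prime_dvd_prime_iff_eq (Fact.out : q.Prime)
    Nat.prime_two).1 ((ZMod.natCast_eq_zero_iff 2 q).1 (by exact_mod_cast h))).symm
  have hsplit : ∀ t, t ∉ C → t * t = 1 → Nat.card (F t) ^ 2 = Nat.card V := by
    intro t htC htt
    have hcard : Nat.card (F t) = Nat.card (F (t * z)) := by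
      refine Nat.card_congr ((ρ w).toEquiv.subtypeEquiv fun v => ?_)
      show ρ t v = v ↔ ρ (t * z) (ρ w v) = ρ w v
      rw [← hw t htC htt, apply_mul, apply_inv_apply, apply_mul]
      exact ⟨fun h => by rw [h], fun h => (ρ w).injective h⟩
    conv_lhs => rw [sq]; arg 2; rw [hcard]
    rw [← Nat.card_prod]
    have hneg : ∀ v : V, v ∈ F (t * z) → ρ t v = -v := fun v (hv : ρ (t * z) v = v) => by
      rw [apply_mul, hmz, map_neg] at hv
      exact neg_eq_iff_eq_neg.1 hv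
    have htv : ∀ v, ρ t (ρ t v) = v := fun v => by rw [← apply_mul, htt, apply_one]
    symm
    refine Nat.card_congr
      { toFun := fun v => (⟨(2 : ZMod q)⁻¹ • (v + ρ t v), ?_⟩, ⟨(2 : ZMod q)⁻¹ • (v - ρ t v), ?_⟩)
        invFun := fun x => x.1.1 + x.2.1
        left_inv := fun v => ?_
        right_inv := fun x => ?_ }
    · show ρ t _ = _
      rw [map_smul, map_add, htv, add_comm]
    · show ρ (t * z) _ = _
      rw [apply_mul, hmz, map_neg, map_smul, map_sub, htv, ← smul_neg, neg_sub]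
    · show (2 : ZMod q)⁻¹ • (v + ρ t v) + (2 : ZMod q)⁻¹ • (v - ρ t v) = v
      rw [← smul_add, show v + ρ t v + (v - ρ t v) = (2 : ZMod q) • v by rw [two_smul]; abel,
        smul_smul, inv_mul_cancel₀ h2, one_smul]
    · have h1 : ρ t x.1.1 = x.1.1 := x.1.2
      have h3 := hneg _ x.2.2
      ext
      · show (2 : ZMod q)⁻¹ • (x.1.1 + x.2.1 + ρ t (x.1.1 + x.2.1)) = x.1.1
        rw [map_add, h1, h3, show x.1.1 + x.2.1 + (x.1.1 + -x.2.1) = (2 : ZMod q) • x.1.1 by
          rw [two_smul]; abel, smul_smul, inv_mul_cancel₀ h2, one_smul]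
      · show (2 : ZMod q)⁻¹ • (x.1.1 + x.2.1 - ρ t (x.1.1 + x.2.1)) = x.2.1
        rw [map_add, h1, h3, show x.1.1 + x.2.1 - (x.1.1 + -x.2.1) = (2 : ZMod q) • x.2.1 by
          rw [two_smul]; abel, smul_smul, inv_mul_cancel₀ h2, one_smul]
  set T : Finset G := univ.filter fun t => t ∉ C ∧ t * t = 1 with hT
  set N : Finset V := univ.filter fun v => v ≠ 0 with hN
  obtain ⟨v0, hv0⟩ := exists_ne (0 : V)
  obtain ⟨t0, ⟨ht0, hv0'⟩, -⟩ := huniq v0 hv0
  set m := Module.finrank (ZMod q) (F t0) with hmdef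
  have hm : Nat.card (F t0) = q ^ m := by
    rw [Module.natCard_eq_pow_finrank (K := ZMod q), Nat.card_zmod]
  have hm0 : m ≠ 0 := by
    intro h
    have := (Nat.card_eq_one_iff_unique.1 (hm.trans (by rw [h, pow_zero]))).1
    exact hv0 (congrArg Subtype.val (Subsingleton.elim (⟨v0, hv0'⟩ : F t0) 0))
  have hV : Nat.card V = q ^ (2 * m) := by
    rw [← hsplit t0 ht0.1 ht0.2, hm, ← pow_mul, mul_comm]
  have hFt : ∀ t ∈ T, (N.filter fun v => ρ t v = v).card = q ^ m - 1 := by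
    intro t ht
    simp only [hT, mem_filter, mem_univ, true_and] at ht
    have h := hsplit t ht.1 ht.2
    rw [hV, mul_comm, pow_mul] at h
    have h' : Nat.card (F t) = q ^ m := Nat.pow_left_injective (by norm_num : 2 ≠ 0) h
    have hset : N.filter (fun v => ρ t v = v) = (univ.filter fun v => ρ t v = v).erase 0 := by
      ext v; simp [hN]
    rw [hset, card_erase_of_mem (by simp), ← h', Nat.card_eq_fintype_card]
    congr 1
    exact (Fintype.card_subtype _).symm
  have hcount : N.card = T.card * (q ^ m - 1) := by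
    calc N.card = ∑ v ∈ N, (T.filter fun t => ρ t v = v).card := by
          rw [sum_const_nat (m := 1) ?_, mul_one]
          intro v hv
          obtain ⟨t, ht, hu⟩ := huniq v (by simpa [hN] using hv)
          rw [card_eq_one]
          refine ⟨t, ?_⟩
          ext s
          simp only [hT, mem_filter, mem_univ, true_and, mem_singleton]
          exact ⟨fun h => hu s h, fun h => h ▸ ht⟩
      _ = ∑ t ∈ T, (N.filter fun v => ρ t v = v).card := by
          simp only [card_filter]; exact sum_comm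
      _ = T.card * (q ^ m - 1) := by rw [sum_const_nat hFt]
  refine ⟨m, hm0, hV, ?_⟩
  have hN' : N.card = q ^ (2 * m) - 1 := by
    rw [← hV, Nat.card_eq_fintype_card, hN, filter_ne', card_erase_of_mem (mem_univ _), card_univ]
  have hTc : Nat.card {t : G | t ∉ C ∧ t * t = 1} = T.card := by
    rw [Nat.card_eq_fintype_card]
    exact Fintype.card_subtype _
  rw [hTc]
  have h1 : 2 ≤ q ^ m := le_trans (Fact.out : q.Prime).two_le (Nat.le_self_pow hm0 q)
  have h3 : q ^ (2 * m) - 1 = (q ^ m + 1) * (q ^ m - 1) := by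
    rw [mul_comm 2 m, pow_mul, ← Nat.sq_sub_sq, one_pow]
  rw [hN', h3] at hcount
  exact Nat.eq_of_mul_eq_mul_right (by omega) hcount

omit hρ hirr he hns hpq in
theorem mem_zpowers_of_ne_one {c : G} {j : ℕ} (hc : orderOf c = 2 ^ (j + 1)) {x : G}
    (hx : x ∈ Subgroup.zpowers c) (hx1 : x ≠ 1) : c ^ 2 ^ j ∈ Subgroup.zpowers x := by
  obtain ⟨i, rfl⟩ := (Submonoid.mem_powers_iff _ _).1 (mem_powers_iff_mem_zpowers.2 hx)
  have hi0 : i ≠ 0 := by rintro rfl; exact hx1 (pow_zero c)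
  obtain ⟨a, r, hr, rfl⟩ : ∃ a r, ¬ 2 ∣ r ∧ i = 2 ^ a * r :=
    Nat.exists_eq_pow_mul_and_not_dvd hi0 2 (by norm_num)
  have haj : a ≤ j := by
    by_contra h
    apply hx1
    rw [← orderOf_dvd_iff_pow_eq_one, hc]
    exact dvd_mul_of_dvd_left (pow_dvd_pow 2 (by omega)) r
  refine Subgroup.mem_zpowers_iff.2 ⟨(2 ^ (j - a) : ℕ), ?_⟩
  rw [zpow_natCast, ← pow_mul]
  obtain ⟨l, hl⟩ := Nat.odd_iff.2 (by omega : r % 2 = 1)
  subst hl
  have : 2 ^ a * (2 * l + 1) * 2 ^ (j - a) = 2 ^ (j + 1) * l + 2 ^ j := by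
    rw [show j + 1 = a + (j - a) + 1 by omega, show 2 ^ j = 2 ^ a * 2 ^ (j - a) by
      rw [← pow_add]; congr 1; omega, pow_succ, pow_add]
    ring
  rw [this, pow_add, pow_mul, ← hc, pow_orderOf_eq_one, one_pow, one_mul]

variable (hG : IsPGroup 2 G)

theorem dihedral {n : ℕ} (hG : IsPGroup 2 G) (hn : 8 ≤ n) (e : G ≃* DihedralGroup n) :
    Nat.card V = q ^ 2 ∧ ∃ m : ℕ, q = 2 ^ m - 1 ∧ Nonempty (G ≃* DihedralGroup (2 ^ m)) := by
  classical
  have : NeZero n := ⟨by omega⟩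
  have hcardG : Nat.card G = 2 * n := by
    rw [Nat.card_congr e.toEquiv, DihedralGroup.nat_card]
  obtain ⟨k, hk⟩ := IsPGroup.iff_card.1 hG
  obtain ⟨j, hj⟩ : ∃ j, n = 2 ^ j := by
    rcases k with _ | k
    · simp at hk; omega
    · exact ⟨k, by rw [pow_succ] at hk; omega⟩
  obtain ⟨i, rfl⟩ : ∃ i, j = i + 3 := by
    refine ⟨j - 3, ?_⟩
    by_contra h
    have := Nat.pow_le_pow_right (by norm_num : 2 ≥ 1) (show j ≤ 2 by omega)
    omega
  set c := e.symm (DihedralGroup.r 1) with hc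
  set C := Subgroup.zpowers c with hCdef
  have hcord : orderOf c = n := by rw [hc, MulEquiv.orderOf_eq, DihedralGroup.orderOf_r_one]
  have hpowr : ∀ i : ℕ, c ^ i = e.symm (DihedralGroup.r (i : ZMod n)) := fun i => by
    rw [hc, ← map_pow, DihedralGroup.r_one_pow]
  have hmem : ∀ x, x ∈ C ↔ ∃ i, e x = DihedralGroup.r i := by
    intro x
    rw [hCdef, ← mem_powers_iff_mem_zpowers, Submonoid.mem_powers_iff]
    constructor
    · rintro ⟨i, rfl⟩; exact ⟨i, by rw [hpowr, MulEquiv.apply_symm_apply]⟩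
    · rintro ⟨i, hi⟩
      exact ⟨i.val, by rw [hpowr, ZMod.natCast_rightInverse, ← hi, e.symm_apply_apply]⟩
  have hindex : C.index = 2 := by
    have := C.card_mul_index
    rw [hCdef, Nat.card_zpowers, hcord, hcardG] at this
    exact Nat.eq_of_mul_eq_mul_left (by omega : 0 < n) (this.trans (by ring))
  have hout : {t : G | t ∉ C ∧ t * t = 1} = (C : Set G)ᶜ := by
    ext t
    simp only [Set.mem_ofPred_eq, Set.mem_compl_iff, SetLike.mem_coe, and_iff_left_iff_imp]
    intro ht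
    apply e.injective
    rw [map_mul, map_one]
    cases het : e t with
    | r i => exact absurd ((hmem t).2 ⟨i, het⟩) ht
    | sr i => simp
  have hcn : Nat.card {t : G | t ∉ C ∧ t * t = 1} = n := by
    rw [hout, Nat.card_coe_set_eq, Set.ncard_compl, ← Nat.card_coe_set_eq, hcardG]
    show 2 * n - Nat.card (Subgroup.zpowers c) = n
    rw [Nat.card_zpowers, hcord]; omega
  have hzero : ((2 ^ (i + 3) : ℕ) : ZMod n) = 0 := by rw [← hj, ZMod.natCast_self]
  have h1 : c ^ 2 ^ (i + 2) * c ^ 2 ^ (i + 2) = 1 := by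
    rw [← pow_add, show 2 ^ (i + 2) + 2 ^ (i + 2) = orderOf c by rw [hcord, hj]; ring,
      pow_orderOf_eq_one]
  have h2 : c ^ 2 ^ (i + 2) ≠ 1 := fun h => by
    have := Nat.le_of_dvd (by positivity) (orderOf_dvd_of_pow_eq_one h)
    rw [hcord, hj, pow_succ] at this
    have := Nat.one_le_two_pow (n := i + 2)
    omega
  have h3 : ∀ g, g * c ^ 2 ^ (i + 2) = c ^ 2 ^ (i + 2) * g := by
    intro g
    apply e.injective
    rw [map_mul, map_mul, hpowr, MulEquiv.apply_symm_apply]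
    have hneg : -((2 ^ (i + 2) : ℕ) : ZMod n) = ((2 ^ (i + 2) : ℕ) : ZMod n) := by
      rw [neg_eq_iff_add_eq_zero, ← Nat.cast_add, ← hzero]
      congr 1; ring
    cases e g with
    | r a => simp [add_comm]
    | sr a => simp only [DihedralGroup.sr_mul_r, DihedralGroup.r_mul_sr, sub_eq_add_neg, hneg]
  have h5 : ∀ t, t ∉ C → t * t = 1 →
      c ^ 2 ^ (i + 1) * t * (c ^ 2 ^ (i + 1))⁻¹ = t * c ^ 2 ^ (i + 2) := by
    intro t htC _
    apply e.injective
    rw [map_mul, map_mul, map_mul, map_inv, hpowr, hpowr, MulEquiv.apply_symm_apply,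
      MulEquiv.apply_symm_apply]
    cases het : e t with
    | r a => exact absurd ((hmem t).2 ⟨a, het⟩) htC
    | sr a =>
      simp only [DihedralGroup.r_mul_sr, DihedralGroup.inv_r, DihedralGroup.sr_mul_r]
      congr 1
      push_cast at hzero ⊢
      ring_nf at hzero ⊢
      linear_combination -hzero
  obtain ⟨m, hm0, hV, hm⟩ := count ρ hρ hirr he hns hpq C hindex h1 h2 h3
    (fun x hx hx1 => mem_zpowers_of_ne_one (by rw [hcord, hj]) hx hx1) h5
  rw [hcn, hj] at hm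
  obtain rfl := eq_one_of_prime_pow_add_one Fact.out hm0 hm
  rw [pow_one] at hm
  exact ⟨hV, i + 3, by omega, hj ▸ ⟨e⟩⟩

theorem semidihedral (hS : Cfsg.IsQuasiDihedral G) :
    Nat.card V = q ^ 2 ∧ ∃ m : ℕ, q = 2 ^ m - 1 ∧ Nat.card G = 2 ^ (m + 2) := by
  obtain ⟨n, hn, hcard, x, y, hx, hy, hxy⟩ := hS
  obtain ⟨i, rfl⟩ : ∃ i, n = i + 3 := ⟨n - 3, by omega⟩
  rw [show i + 3 - 1 = i + 2 by omega] at hxy
  have hyy : y * y = 1 := by rw [← sq, ← hy, pow_orderOf_eq_one]
  obtain ⟨a, ha⟩ : ∃ a, 2 ^ i = a + 1 := ⟨2 ^ i - 1, by have := Nat.one_le_two_pow (n := i); omega⟩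
  have h4 : 2 ^ (i + 2) = 4 * 2 ^ i := by ring
  rw [show 2 ^ (i + 2) - 1 = 4 * a + 3 by omega] at hxy
  set r := 4 * a + 3 with hr
  have hpow : ∀ j : ℕ, y * x ^ j = x ^ (r * j) * y := fun j => by
    have : (y * x * y⁻¹) ^ j = x ^ (r * j) := by rw [hxy, pow_mul]
    rw [conj_pow] at this
    rw [← this]; group
  have hmul : ∀ a b : ℕ, x ^ (a + 2 ^ (i + 3) * b) = x ^ a := fun a b => by
    rw [pow_add, pow_mul, ← hx, pow_orderOf_eq_one, one_pow, mul_one]
  have hne : ∀ k : ℕ, 0 < k → k < 2 ^ (i + 3) → x ^ k ≠ 1 := fun k hk hk' h =>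
    absurd (Nat.le_of_dvd hk (hx ▸ orderOf_dvd_of_pow_eq_one h)) (by omega)
  have h8 : 2 ^ (i + 3) = 8 * 2 ^ i := by ring
  set C := Subgroup.zpowers x with hCdef
  have hyC : y ∉ C := by
    intro h
    obtain ⟨l, hl⟩ := Subgroup.mem_zpowers_iff.1 h
    have hc : Commute y x := hl ▸ (Commute.refl x).zpow_left l
    rw [hc.eq, mul_inv_cancel_right] at hxy
    refine hne (4 * a + 2) (by omega) (by omega) ?_
    rw [hr, show 4 * a + 3 = 4 * a + 2 + 1 by ring, pow_succ, eq_comm, mul_eq_right] at hxy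
    exact hxy
  have hindex : C.index = 2 := by
    have := C.card_mul_index
    rw [hCdef, Nat.card_zpowers, hx, hcard, pow_succ _ (i + 3)] at this
    exact Nat.eq_of_mul_eq_mul_left (by positivity) this
  have hform : ∀ t, t ∉ C → ∃ j, t = y * x ^ j := by
    intro t ht
    have : y⁻¹ * t ∈ C := (Subgroup.mul_mem_iff_of_index_two hindex).2
      (iff_of_false (by rwa [C.inv_mem_iff]) ht)
    obtain ⟨j, hj⟩ := (Submonoid.mem_powers_iff _ _).1 (mem_powers_iff_mem_zpowers.2 this)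
    exact ⟨j, by rw [hj, mul_inv_cancel_left]⟩
  have hout : ∀ j : ℕ, y * x ^ j ∉ C := fun j h =>
    hyC ((C.mul_mem_cancel_right (pow_mem (Subgroup.mem_zpowers x) j)).1 h)
  have hsq : ∀ j, y * x ^ j * (y * x ^ j) = x ^ (2 ^ (i + 2) * j) := by
    intro j
    conv_lhs => arg 1; rw [hpow j]
    rw [mul_assoc, ← mul_assoc y y, hyy, one_mul, ← pow_add]
    congr 1
    have e : r + 1 = 2 ^ (i + 2) := by omega
    rw [← e]; ring
  set z := x ^ 2 ^ (i + 2) with hz
  set w := x ^ 2 ^ (i + 1) with hw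
  have h1 : z * z = 1 := by
    rw [hz, ← pow_add, show 2 ^ (i + 2) + 2 ^ (i + 2) = 0 + 2 ^ (i + 3) * 1 by ring, hmul, pow_zero]
  have h2 : z ≠ 1 := hne _ (by positivity) (by omega)
  have h3 : ∀ g, g * z = z * g := by
    intro g
    have hxz : ∀ j : ℕ, x ^ j * z = z * x ^ j := fun j =>
      ((Commute.refl x).pow_pow j (2 ^ (i + 2))).eq
    by_cases hg : g ∈ C
    · obtain ⟨j, rfl⟩ := (Submonoid.mem_powers_iff _ _).1 (mem_powers_iff_mem_zpowers.2 hg)
      exact hxz j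
    · obtain ⟨j, rfl⟩ := hform g hg
      have hyz : y * z = z * y := by
        rw [hz, hpow]
        congr 1
        rw [show r * 2 ^ (i + 2) = 2 ^ (i + 2) + 2 ^ (i + 3) * (2 * a + 1) by rw [hr]; ring, hmul]
      rw [mul_assoc, hxz, ← mul_assoc, hyz, mul_assoc]
  have h5 : ∀ t, t ∉ C → t * t = 1 → w * t * w⁻¹ = t * z := by
    intro t ht _
    obtain ⟨j, rfl⟩ := hform t ht
    rw [mul_inv_eq_iff_eq_mul, hz, hw, mul_assoc y, ← pow_add, mul_assoc y, ← pow_add, hpow, hpow,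
      ← mul_assoc, ← pow_add]
    congr 1
    rw [show r * (j + 2 ^ (i + 2) + 2 ^ (i + 1)) =
      2 ^ (i + 1) + r * j + 2 ^ (i + 3) * (3 * a + 2) by rw [hr]; ring, hmul]
  obtain ⟨m, hm0, hV, hm⟩ := count ρ hρ hirr he hns hpq C hindex h1 h2 h3
    (fun x' hx' hx1 => mem_zpowers_of_ne_one (show orderOf x = 2 ^ (i + 2 + 1) by rw [hx]) hx' hx1) h5
  have hcn : Nat.card {t : G | t ∉ C ∧ t * t = 1} = 2 ^ (i + 2) := by
    have hset : {t : G | t ∉ C ∧ t * t = 1} = (y * ·) '' (Subgroup.zpowers (x ^ 2) : Set G) := by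
      ext t
      constructor
      · rintro ⟨ht, htt⟩
        obtain ⟨j, rfl⟩ := hform t ht
        rw [hsq, ← orderOf_dvd_iff_pow_eq_one, hx, pow_succ] at htt
        obtain ⟨k, rfl⟩ := Nat.dvd_of_mul_dvd_mul_left (by positivity) htt
        exact ⟨x ^ (2 * k), by rw [pow_mul]; exact pow_mem (Subgroup.mem_zpowers _) k, rfl⟩
      · rintro ⟨u, hu, rfl⟩
        obtain ⟨k, rfl⟩ := (Submonoid.mem_powers_iff _ _).1 (mem_powers_iff_mem_zpowers.2 hu)
        simp only [← pow_mul]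
        refine ⟨hout _, ?_⟩
        rw [hsq, show 2 ^ (i + 2) * (2 * k) = 0 + 2 ^ (i + 3) * k by ring, hmul, pow_zero]
    rw [hset, Nat.card_image_of_injective (mul_right_injective y)]
    show Nat.card (Subgroup.zpowers (x ^ 2)) = _
    rw [Nat.card_zpowers, orderOf_pow' _ (by norm_num), hx,
      Nat.gcd_eq_right (dvd_pow_self 2 (by omega)), pow_succ, Nat.mul_div_cancel _ (by norm_num)]
  rw [hcn] at hm
  obtain rfl := eq_one_of_prime_pow_add_one Fact.out hm0 hm
  rw [pow_one] at hm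
  exact ⟨hV, i + 2, by omega, by rw [hcard]⟩

end Cfsg.Agent.H21.HT
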